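import Cfsg.Agent.LE.J2Inv
import Cfsg.Agent.LE.Gen

/-!
Pairs of involutions and elements of order five in `A₅` (owner: helper58).
-/
set_option autoImplicit false

namespace Cfsg.Agent.LE

open Subgroup

set_option synthInstance.maxHeartbeats 200000 in
set_option synthInstance.maxSize 1000 in
set_option maxRecDepth 100000 in
theorem pair_f : ∀ X : Equiv.Perm (Fin 5), (X = t2 ∨ X = t3) →
    ∃ F : Equiv.Perm (Fin 5), Equiv.Perm.sign F = 1 ∧ F * (F * (F * (F * F))) = 1 ∧ F ≠ 1 ∧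
      (t1 * F) * (t1 * F) = 1 ∧ (X * F) * ((X * F) * (X * F)) = 1 := by
  decide +kernel

set_option synthInstance.maxHeartbeats 200000 in
set_option synthInstance.maxSize 1000 in
set_option maxRecDepth 100000 in
theorem pair_d : ∀ X : Equiv.Perm (Fin 5), (X = t2 ∨ X = t3) →
    ∀ F : Equiv.Perm (Fin 5), (Equiv.Perm.sign F = 1 ∧ F * (F * (F * (F * F))) = 1 ∧ F ≠ 1 ∧
      (t1 * F) * (t1 * F) = 1 ∧ (X * F) * ((X * F) * (X * F)) = 1) →
    (F * F * X * F⁻¹) * t1 = X * (F * F * X * F⁻¹) ∧ (F * F * X * F⁻¹) * X = t1 * X * (F * F * X * F⁻¹) ∧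
      (F * F * X * F⁻¹) * ((F * F * X * F⁻¹) * (F * F * X * F⁻¹)) = 1 ∧ F * F * X * F⁻¹ ≠ 1 := by
  decide +kernel

set_option synthInstance.maxHeartbeats 200000 in
set_option synthInstance.maxSize 1000 in
set_option maxRecDepth 100000 in
theorem cent_gen : ∀ a : Equiv.Perm (Fin 5), (a * (a * a) = 1 ∧ a ≠ 1) →
    ∀ b : Equiv.Perm (Fin 5), (b * (b * b) = 1 ∧ b ≠ 1 ∧ (a * b) * (a * b) = 1 ∧ a * b ≠ 1) →
    ∀ π : Equiv.Perm (Fin 5), π * a = a * π → π * b = b * π → π = 1 := by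
  decide +kernel

theorem a5_norm {L : Type*} [Group L] (e : L ≃* alternatingGroup (Fin 5)) {a b : L}
    (ha : a * a = 1) (ha1 : a ≠ 1) (hb : b * b = 1) (hb1 : b ≠ 1) (hab : a ≠ b) (hc : a * b = b * a) :
    ∃ φ : L ≃* alternatingGroup (Fin 5), (φ a : Equiv.Perm (Fin 5)) = t1 ∧
      ((φ b : Equiv.Perm (Fin 5)) = t2 ∨ (φ b : Equiv.Perm (Fin 5)) = t3) := by
  obtain ⟨π, hπ, hπa⟩ := conj_std (e a : Equiv.Perm (Fin 5)) (Equiv.Perm.mem_alternatingGroup.mp (e a).2)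
    (by rw [← Subgroup.coe_mul, ← map_mul, ha]; simp) (by
      intro h
      apply ha1
      rw [← MulEquiv.map_eq_one_iff e]
      exact Subtype.ext h)
  let φ : L ≃* alternatingGroup (Fin 5) :=
    e.trans (MulAut.conj (⟨π⁻¹, (alternatingGroup (Fin 5)).inv_mem (Equiv.Perm.mem_alternatingGroup.mpr hπ)⟩ :
      alternatingGroup (Fin 5)))
  have hφ : ∀ l, (φ l : Equiv.Perm (Fin 5)) = π⁻¹ * (e l : Equiv.Perm (Fin 5)) * π := by
    intro l
    simp [φ, MulAut.conj_apply]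
  have h1 : (φ a : Equiv.Perm (Fin 5)) = t1 := by rw [hφ]; exact hπa
  refine ⟨φ, h1, ?_⟩
  have h2 : (φ b : Equiv.Perm (Fin 5)) * t1 = t1 * (φ b : Equiv.Perm (Fin 5)) := by
    rw [← h1, ← Subgroup.coe_mul, ← Subgroup.coe_mul, ← map_mul, ← map_mul, hc]
  rcases cent_t1 _ (Equiv.Perm.mem_alternatingGroup.mp (φ b).2) h2 with h3 | h3 | h3 | h3
  · exfalso
    apply hb1
    rw [← MulEquiv.map_eq_one_iff φ]
    exact Subtype.ext h3
  · exfalso
    apply hab
    apply φ.injective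
    apply Subtype.ext
    rw [h1, h3]
  · exact Or.inl h3
  · exact Or.inr h3

/-- an element `f` of order five inverted by `a` with `(b f)³ = 1` -/
theorem a5_exists_f {L : Type*} [Group L] (e : L ≃* alternatingGroup (Fin 5)) {a b : L}
    (ha : a * a = 1) (ha1 : a ≠ 1) (hb : b * b = 1) (hb1 : b ≠ 1) (hab : a ≠ b) (hc : a * b = b * a) :
    ∃ f : L, f * (f * (f * (f * f))) = 1 ∧ f ≠ 1 ∧ (a * f) * (a * f) = 1 ∧
      (b * f) * ((b * f) * (b * f)) = 1 := by
  obtain ⟨φ, h1, h2⟩ := a5_norm e ha ha1 hb hb1 hab hc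
  obtain ⟨F, hF, hF5, hF1, hF2, hF3⟩ := pair_f _ h2
  have hinj : Function.Injective (fun l => (φ l : Equiv.Perm (Fin 5))) :=
    fun x y hxy => φ.injective (Subtype.ext hxy)
  obtain ⟨f, hf⟩ := φ.surjective ⟨F, Equiv.Perm.mem_alternatingGroup.mpr hF⟩
  have hf' : (φ f : Equiv.Perm (Fin 5)) = F := by rw [hf]
  refine ⟨f, ?_, ?_, ?_, ?_⟩
  · apply hinj
    simp only [map_mul, Subgroup.coe_mul, map_one, Subgroup.coe_one, hf']
    exact hF5
  · rintro rfl
    apply hF1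
    rw [← hf', map_one]; rfl
  · apply hinj
    simp only [map_mul, Subgroup.coe_mul, map_one, Subgroup.coe_one, hf', h1]
    exact hF2
  · apply hinj
    simp only [map_mul, Subgroup.coe_mul, map_one, Subgroup.coe_one, hf']
    exact hF3

theorem a5_d {L : Type*} [Group L] (e : L ≃* alternatingGroup (Fin 5)) {a b : L}
    (ha : a * a = 1) (ha1 : a ≠ 1) (hb : b * b = 1) (hb1 : b ≠ 1) (hab : a ≠ b) (hc : a * b = b * a) {f : L}
    (hf5 : f * (f * (f * (f * f))) = 1) (hf1 : f ≠ 1) (haf : (a * f) * (a * f) = 1)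
    (hbf : (b * f) * ((b * f) * (b * f)) = 1) :
    (f * f * b * f⁻¹) * a = b * (f * f * b * f⁻¹) ∧ (f * f * b * f⁻¹) * b = a * b * (f * f * b * f⁻¹) ∧
      (f * f * b * f⁻¹) * ((f * f * b * f⁻¹) * (f * f * b * f⁻¹)) = 1 ∧ f * f * b * f⁻¹ ≠ 1 := by
  obtain ⟨φ, h1, h2⟩ := a5_norm e ha ha1 hb hb1 hab hc
  have hinj : Function.Injective (fun l => (φ l : Equiv.Perm (Fin 5))) :=
    fun x y hxy => φ.injective (Subtype.ext hxy)
  obtain ⟨k1, k2, k3, k4⟩ := pair_d _ h2 (φ f : Equiv.Perm (Fin 5)) ⟨Equiv.Perm.mem_alternatingGroup.mp (φ f).2, by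
      simp only [← Subgroup.coe_mul, ← map_mul, hf5, map_one, Subgroup.coe_one], by
      intro h
      apply hf1
      rw [← MulEquiv.map_eq_one_iff φ]
      exact Subtype.ext h, by
      simp only [← h1, ← Subgroup.coe_mul, ← map_mul, haf, map_one, Subgroup.coe_one], by
      simp only [← Subgroup.coe_mul, ← map_mul, hbf, map_one, Subgroup.coe_one]⟩
  refine ⟨?_, ?_, ?_, ?_⟩
  · apply hinj
    simp only [map_mul, Subgroup.coe_mul, map_inv, Subgroup.coe_inv, h1]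
    exact k1
  · apply hinj
    simp only [map_mul, Subgroup.coe_mul, map_inv, Subgroup.coe_inv, h1]
    exact k2
  · apply hinj
    simp only [map_mul, Subgroup.coe_mul, map_inv, Subgroup.coe_inv, map_one, Subgroup.coe_one]
    exact k3
  · intro h
    apply k4
    have := congrArg (fun l => (φ l : Equiv.Perm (Fin 5))) h
    simpa only [map_mul, Subgroup.coe_mul, map_inv, Subgroup.coe_inv, map_one, Subgroup.coe_one] using this

end Cfsg.Agent.LE
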