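import Cfsg.Agent.LE.J2Five
import Cfsg.Agent.LE.A5Pair
import Cfsg.Agent.LE.J2Bridge

/-!
`C(z) ∩ C(f) ≅ A₅` for `f ∈ L` of order five inverted by `z` (owner: helper58).
-/
set_option autoImplicit false

namespace Cfsg.Agent.LE

open Subgroup

variable {G : Type*} [Group G] [Finite G]

/-- an automorphism of `A₅` centralising `A₄` is trivial -/
theorem aut_a5_eq_one {B : Type*} [Group B] (e : B ≃* alternatingGroup (Fin 5)) (τ : B ≃* B) {a b : B}
    (ha : τ a = a) (hb : τ b = b) (ha3 : a * (a * a) = 1) (ha1 : a ≠ 1) (hb3 : b * (b * b) = 1)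
    (hb1 : b ≠ 1) (hab : (a * b) * (a * b) = 1) (hab1 : a * b ≠ 1) : ∀ c, τ c = c := by
  have hbij := AutAlt.conjNormal_bijective (α := Fin 5) (by simp) (by simp)
  let T : MulAut (alternatingGroup (Fin 5)) := (e.symm.trans τ).trans e
  obtain ⟨π, hπ⟩ := hbij.2 T
  have key : ∀ c : B, (e (τ c) : Equiv.Perm (Fin 5)) = π * (e c : Equiv.Perm (Fin 5)) * π⁻¹ := by
    intro c
    have h1 : T (e c) = e (τ c) := by simp [T]
    rw [← h1, ← hπ]
    exact MulAut.conjNormal_apply π (e c)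
  have h1 : π * (e a : Equiv.Perm (Fin 5)) = (e a : Equiv.Perm (Fin 5)) * π := by
    have := key a
    rw [ha] at this
    exact (eq_mul_inv_iff_mul_eq.mp this).symm
  have h2 : π * (e b : Equiv.Perm (Fin 5)) = (e b : Equiv.Perm (Fin 5)) * π := by
    have := key b
    rw [hb] at this
    exact (eq_mul_inv_iff_mul_eq.mp this).symm
  have hne : ∀ c : B, c ≠ 1 → (e c : Equiv.Perm (Fin 5)) ≠ 1 := by
    intro c hc h
    apply hc
    rw [← MulEquiv.map_eq_one_iff e]
    exact Subtype.ext h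
  have h3 : π = 1 := by
    refine cent_gen (e a : Equiv.Perm (Fin 5)) ⟨?_, hne a ha1⟩ (e b : Equiv.Perm (Fin 5)) ⟨?_, hne b hb1, ?_, ?_⟩ π h1 h2
    · simp only [← Subgroup.coe_mul, ← map_mul, ha3, map_one, Subgroup.coe_one]
    · simp only [← Subgroup.coe_mul, ← map_mul, hb3, map_one, Subgroup.coe_one]
    · simp only [← Subgroup.coe_mul, ← map_mul, hab, map_one, Subgroup.coe_one]
    · rw [← Subgroup.coe_mul, ← map_mul]
      exact hne _ hab1
  intro c
  apply e.injective
  apply Subtype.ext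
  rw [key c, h3]
  simp

/-- the intersection of the centralizers -/
theorem J2Loc.cent_zf {z t : G} {E L K : Subgroup G} (h : J2Loc z t E L K) {f : G} (hf : f ∈ L)
    (hf5 : f * (f * (f * (f * f))) = 1) (hf1 : f ≠ 1) (hzf : (z * f) * (z * f) = 1) {p q : G} (hp : p ∈ K)
    (hq : q ∈ K) (hp3 : p * (p * p) = 1) (hp1 : p ≠ 1) (hq3 : q * (q * q) = 1) (hq1 : q ≠ 1)
    (hpq : (p * q) * (p * q) = 1) (hpq1 : p * q ≠ 1) :
    Nonempty (↥(centralizer ({f} : Set G) ⊓ centralizer ({z} : Set G)) ≃* alternatingGroup (Fin 5)) := by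
  have ho5 : orderOf f = 5 := by
    have : Fact (Nat.Prime 5) := ⟨by norm_num⟩
    apply orderOf_eq_prime _ hf1
    rw [show f ^ 5 = f * (f * (f * (f * f))) by simp only [pow_succ, pow_zero, one_mul, mul_assoc]]
    exact hf5
  have hzz : z * z = 1 := by rw [← pow_two, ← h.hz, pow_orderOf_eq_one]
  have hzi : z⁻¹ = z := inv_eq_of_mul_eq_one_left hzz
  have hzfz : z * f * z⁻¹ = f⁻¹ := by
    rw [hzi]
    apply eq_inv_of_mul_eq_one_left
    rw [← hzf]; group
  obtain ⟨-, ⟨eB⟩⟩ := h.card_C5 hf ho5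
  let C := centralizer ({f} : Set G)
  have hzC : ∀ c : G, c ∈ C → z * c * z⁻¹ ∈ C := by
    intro c hc
    rw [mem_cent] at hc ⊢
    have h1 := conj_comm (g := z) hc
    rw [hzfz] at h1
    have h2 : Commute (z * c * z⁻¹) f⁻¹ := h1
    exact (Commute.inv_right_iff.mp h2)
  let τ : C ≃* C :=
    { toFun := fun c => ⟨z * c * z⁻¹, hzC c c.2⟩
      invFun := fun c => ⟨z * c * z⁻¹, hzC c c.2⟩
      left_inv := fun c => by
        apply Subtype.ext
        change z * (z * c * z⁻¹) * z⁻¹ = c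
        rw [hzi]
        calc z * (z * (c : G) * z) * z = (z * z) * c * (z * z) := by group
          _ = c := by rw [hzz, one_mul, mul_one]
      right_inv := fun c => by
        apply Subtype.ext
        change z * (z * c * z⁻¹) * z⁻¹ = c
        rw [hzi]
        calc z * (z * (c : G) * z) * z = (z * z) * c * (z * z) := by group
          _ = c := by rw [hzz, one_mul, mul_one]
      map_mul' := fun c d => by
        apply Subtype.ext
        change z * (c * d) * z⁻¹ = (z * c * z⁻¹) * (z * d * z⁻¹)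
        group }
  have hτf : (zpowers (selfC f)).map τ.toMonoidHom = zpowers (selfC f) := by
    rw [MonoidHom.map_zpowers]
    have : τ.toMonoidHom (selfC f) = (selfC f)⁻¹ := Subtype.ext hzfz
    rw [this, zpowers_inv]
  let F := zpowers (selfC f)
  let τB : (C ⧸ F) ≃* (C ⧸ F) := QuotientGroup.congr F F τ hτf
  have hτB : ∀ c : C, τB (QuotientGroup.mk c) = QuotientGroup.mk (τ c) := fun c => rfl
  have hKC : ∀ k : G, k ∈ K → k ∈ C := fun k hk => mem_cent.mpr (h.comm k hk f hf)
  have hKz : ∀ k : G, k ∈ K → z * k * z⁻¹ = k := by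
    intro k hk
    rw [mul_inv_eq_iff_eq_mul]
    exact (h.comm k hk z h.hzL).symm
  have hKF : ∀ k (hk : k ∈ K), k ≠ 1 → (QuotientGroup.mk (⟨k, hKC k hk⟩ : C) : C ⧸ F) ≠ 1 := by
    intro k hk hk1 h1
    rw [QuotientGroup.eq_one_iff] at h1
    obtain ⟨n, hn⟩ := h1
    have hn' : f ^ n = k := congrArg Subtype.val hn
    have h2 : k ∈ K ⊓ L := ⟨hk, by rw [← hn']; exact L.zpow_mem hf n⟩
    rw [h.disj] at h2
    exact hk1 (mem_bot.mp h2)
  have hfix : ∀ c : C ⧸ F, τB c = c := by
    have mk1 : ∀ k (hk : k ∈ K), τB (QuotientGroup.mk (⟨k, hKC k hk⟩ : C)) = QuotientGroup.mk (⟨k, hKC k hk⟩ : C) := by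
      intro k hk
      rw [hτB]
      congr 1
      exact Subtype.ext (hKz k hk)
    refine aut_a5_eq_one eB τB (mk1 p hp) (mk1 q hq) ?_ (hKF p hp hp1) ?_ (hKF q hq hq1) ?_ ?_
    · rw [← QuotientGroup.mk_mul, ← QuotientGroup.mk_mul]
      rw [← QuotientGroup.mk_one]
      congr 1
      exact Subtype.ext hp3
    · rw [← QuotientGroup.mk_mul, ← QuotientGroup.mk_mul]
      rw [← QuotientGroup.mk_one]
      congr 1
      exact Subtype.ext hq3
    · rw [← QuotientGroup.mk_mul, ← QuotientGroup.mk_mul]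
      rw [← QuotientGroup.mk_one]
      congr 1
      exact Subtype.ext hpq
    · exact hKF (p * q) (K.mul_mem hp hq) hpq1
  have hffz : ∀ n : ℤ, z * f ^ n * z⁻¹ = f ^ (-n) := by
    intro n
    rw [← conj_zpow, hzfz, inv_zpow, zpow_neg]
  have hf5' : f ^ (5 : ℤ) = 1 := by
    have : f ^ (5 : ℕ) = 1 := by rw [← ho5, pow_orderOf_eq_one]
    exact_mod_cast this
  let D := centralizer ({f} : Set G) ⊓ centralizer ({z} : Set G)
  let φ : D →* C ⧸ F := (QuotientGroup.mk' F).comp (Subgroup.inclusion (inf_le_left : D ≤ C))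
  have hinj : Function.Injective φ := by
    rw [injective_iff_map_eq_one]
    intro c hc
    have h1 : (⟨c, c.2.1⟩ : C) ∈ F := by
      rw [← QuotientGroup.eq_one_iff]
      exact hc
    obtain ⟨n, hn⟩ := h1
    have hn' : f ^ n = (c : G) := congrArg Subtype.val hn
    have hcz : (c : G) * z = z * c := mem_cent.mp c.2.2
    have h2 := hffz n
    rw [hn'] at h2
    have h3 : z * (c : G) * z⁻¹ = c := by rw [mul_inv_eq_iff_eq_mul, hcz]
    rw [h3, ← hn'] at h2
    have h4 : f ^ (2 * n) = 1 := by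
      rw [two_mul, zpow_add]
      nth_rewrite 1 [h2]
      rw [← zpow_add]; simp
    have h5 : f ^ n = 1 := by
      have e1 : n = 5 * n + (2 * n) * (-2) := by ring
      rw [e1, zpow_add, zpow_mul, hf5', one_zpow, one_mul, zpow_mul, h4, one_zpow]
    apply Subtype.ext
    rw [← hn', h5]; rfl
  have hsurj : Function.Surjective φ := by
    intro b
    obtain ⟨c, rfl⟩ := QuotientGroup.mk_surjective b
    have h1 := hfix (QuotientGroup.mk c)
    rw [hτB, eq_comm, QuotientGroup.eq] at h1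
    obtain ⟨n, hn⟩ := h1
    have hn' : f ^ n = (c : G)⁻¹ * (z * c * z⁻¹) := congrArg Subtype.val hn
    have hzc : z * (c : G) * z⁻¹ = c * f ^ n := by rw [hn']; group
    have hcf : (c : G) * f = f * c := mem_cent.mp c.2
    let c' : G := c * f ^ (3 * n)
    have hc'C : c' ∈ C := by
      rw [mem_cent]
      change (c : G) * f ^ (3 * n) * f = f * (c * f ^ (3 * n))
      rw [mul_assoc, ← zpow_add_one, add_comm, zpow_one_add, ← mul_assoc, hcf, mul_assoc]
    have hc'z : c' * z = z * c' := by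
      have e1 : z * c' * z⁻¹ = c' := by
        have e2 : z * c' * z⁻¹ = (z * c * z⁻¹) * (z * f ^ (3 * n) * z⁻¹) := by
          change z * (c * f ^ (3 * n)) * z⁻¹ = _
          group
        rw [e2, hzc, hffz, mul_assoc, ← zpow_add]
        change (c : G) * f ^ (n + -(3 * n)) = c * f ^ (3 * n)
        have e3 : n + -(3 * n) = 3 * n + 5 * (-n) := by ring
        rw [e3, zpow_add f (3 * n), zpow_mul f 5, hf5', one_zpow, mul_one]
      rw [mul_inv_eq_iff_eq_mul] at e1
      exact e1.symm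
    refine ⟨⟨c', hc'C, mem_cent.mpr hc'z⟩, ?_⟩
    change (QuotientGroup.mk (⟨c', hc'C⟩ : C) : C ⧸ F) = QuotientGroup.mk c
    rw [eq_comm, QuotientGroup.eq]
    refine ⟨3 * n, ?_⟩
    apply Subtype.ext
    change f ^ (3 * n) = (c : G)⁻¹ * (c * f ^ (3 * n))
    group
  exact ⟨(MulEquiv.ofBijective φ ⟨hinj, hsurj⟩).trans eB⟩

end Cfsg.Agent.LE
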