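import Cfsg.Agent.LE.J2Pure
import Cfsg.Agent.LE.J2D

/-!
The generators of a group of `J₂` type (owner: helper58).
-/
set_option autoImplicit false

namespace Cfsg.Agent.LE

open Subgroup Cfsg.Agent.H90

variable {G : Type*} [Group G] [Finite G] {Q : Subgroup G} {z v : G} {x : Fin 5 → G}

/-- elements of `A₄` -/
theorem a4_gens : ∃ a b : alternatingGroup (Fin 4), a * (a * a) = 1 ∧ a ≠ 1 ∧ b * (b * b) = 1 ∧ b ≠ 1 ∧
    (a * b) * (a * b) = 1 ∧ a * b ≠ 1 := by
  refine ⟨⟨Equiv.swap 0 1 * Equiv.swap 1 2, Equiv.Perm.mem_alternatingGroup.mpr (by decide)⟩,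
    ⟨Equiv.swap 0 1 * Equiv.swap 1 3, Equiv.Perm.mem_alternatingGroup.mpr (by decide)⟩, ?_, ?_, ?_, ?_, ?_, ?_⟩
  all_goals first | (apply Subtype.ext; decide) | (intro h; have h2 := congrArg Subtype.val h; revert h2; decide)

/-- relations between the generators, first part -/
structure J2Pre (Q : Subgroup G) (z : G) (x : Fin 5 → G) (E L K : Subgroup G) (p q : G) : Prop where
  B : Base Q z x
  prod : x 0 * (x 1 * (x 2 * (x 3 * x 4))) = 1
  x4L : x 4 ∈ L
  pK : p ∈ K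
  qK : q ∈ K
  p3 : p * (p * p) = 1
  q3 : q * (q * q) = 1
  p1 : p ≠ 1
  q1 : q ≠ 1
  pq : (p * q) * (p * q) = 1
  pq1 : p * q ≠ 1
  ap : Act z x p v2 0
  aq : Act z x q v3 0
  KQ : ∀ k ∈ K, k ∈ Q → k = 1

theorem Base.relabel_const (B : Base Q z x) (a : ZMod 2) {c : G} (hc : c * z = z * c)
    {σ : Equiv.Perm (Fin 5)} (h : Act z x c σ 0) :
    Act z (fun i => zp z a * x i) c σ 0 := by
  have h1 := B.act_relabel 1 (fun _ => a) hc h
  rw [inv_one, one_mul, mul_one] at h1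
  intro i
  have h2 := h1 i
  simp only [Equiv.Perm.coe_one, id, Pi.zero_apply, add_zero, CharTwo.add_self_eq_zero] at h2 ⊢
  exact h2

theorem exists_pre {E L K : Subgroup G} (S : J2Set Q z x v) (W : J2M Q z v E L) (h : J2Loc z v E L K) :
    ∃ x' p q, J2Pre Q z x' E L K p q := by
  obtain ⟨y, B, hact⟩ := S.B.normal_form S.vz S.vQ S.vv
  have hy4v : y 4 * v = v * y 4 := by
    have := B.nf_conj S.vz S.vv hact 4
    rw [show t1 4 = 4 by decide] at this
    exact this.symm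
  have hy4L : y 4 ∈ L := W.QL (mem_inf_cent.mpr ⟨B.pts.mem 4, hy4v⟩)
  obtain ⟨eK⟩ := h.eK
  obtain ⟨a, b, ha3, ha1, hb3, hb1, hab, hab1⟩ := a4_gens
  have tr : ∀ c : alternatingGroup (Fin 4), c ≠ 1 → ((eK.symm c : K) : G) ≠ 1 := by
    intro c hc h1
    apply hc
    rw [← MulEquiv.map_eq_one_iff eK.symm]
    exact Subtype.ext h1
  let p : G := (eK.symm a : K)
  let q : G := (eK.symm b : K)
  have pK : p ∈ K := (eK.symm a).2
  have qK : q ∈ K := (eK.symm b).2
  have p3 : p * (p * p) = 1 := by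
    simp only [p, ← Subgroup.coe_mul, ← map_mul, ha3, map_one, Subgroup.coe_one]
  have q3 : q * (q * q) = 1 := by
    simp only [q, ← Subgroup.coe_mul, ← map_mul, hb3, map_one, Subgroup.coe_one]
  have hpq : (p * q) * (p * q) = 1 := by
    simp only [p, q, ← Subgroup.coe_mul, ← map_mul, hab, map_one, Subgroup.coe_one]
  have hpq1 : p * q ≠ 1 := by
    have := tr _ hab1
    rwa [map_mul] at this
  have p1 : p ≠ 1 := tr a ha1
  have q1 : q ≠ 1 := tr b hb1
  have hz : ∀ k ∈ K, k * z = z * k := fun k hk => h.comm k hk z h.hzL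
  have hnQ : ∀ k : G, k * (k * k) = 1 → k ≠ 1 → k ∉ Q := by
    intro k hk3 hk1 hkQ
    apply hk1
    have h4 := B.pl.pow_four hkQ
    have e : k ^ 4 = k * (k * (k * k)) := by simp only [pow_succ, pow_zero, one_mul, mul_assoc]
    rw [e, hk3, mul_one] at h4
    exact h4
  -- cubes of elements of `K` are in `E`
  have hcube : ∀ k ∈ K, k ^ 3 ∈ E := by
    intro k hk
    have hEn : (E.subgroupOf K).Normal := ⟨fun e he k => by
      rw [mem_subgroupOf] at he ⊢
      have h1 : (k : G) ∈ normalizer (E : Set G) := by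
        rw [h.hNE]; exact Subgroup.mem_sup_left k.2
      exact (mem_normalizer_iff.mp h1 e).mp he⟩
    have hidx : (E.subgroupOf K).index = 3 := by
      have h1 := (E.subgroupOf K).card_mul_index
      have h2 : Nat.card (E.subgroupOf K) = 4 := by
        rw [Nat.card_congr (Subgroup.subgroupOfEquivOfLe h.hEK).toEquiv, h.cardE]
      have h3 : Nat.card K = 12 := A4.card ⟨eK⟩
      rw [h2, h3] at h1
      omega
    have h1 := Subgroup.pow_index_mem (E.subgroupOf K) (⟨k, hk⟩ : K)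
    rw [hidx, mem_subgroupOf] at h1
    exact h1
  have hpqE : p * q ∈ E := by
    have h1 := hcube _ (K.mul_mem pK qK)
    rwa [pow_succ, pow_two, hpq, one_mul] at h1
  have hKQ : ∀ k ∈ K, k ∈ Q → k = 1 := by
    intro k hk hkQ
    have h3 : k ^ 3 = 1 := by
      by_contra h3
      exact W.EnotQ S (hcube k hk) h3 (Q.pow_mem hkQ 3)
    have h4 := S.B.pl.pow_four hkQ
    rw [pow_succ, h3, one_mul] at h4
    exact h4
  obtain ⟨x1, B1, h4, h5, h6⟩ := B.exists_labels (hz p pK) (hz q qK) (h.comm p pK _ hy4L) (h.comm q qK _ hy4L)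
    p3 q3 hpq (hnQ p p3 p1) (hnQ q q3 q1) (W.EnotQ S hpqE hpq1)
  have key : ∃ x2 : Fin 5 → G, Base Q z x2 ∧ x2 4 ∈ L ∧ Act z x2 p v2 0 ∧ Act z x2 q v3 0 ∧
      x2 0 * (x2 1 * (x2 2 * (x2 3 * x2 4))) = 1 := by
    rcases B1.pts.prod with hprod | hprod
    · exact ⟨x1, B1, h4 ▸ hy4L, h5, h6, hprod⟩
    · have hB := B1.relabel 1 (fun _ => 1)
      have e1 : (fun i => zp z ((fun _ => (1 : ZMod 2)) i) * x1 ((1 : Equiv.Perm (Fin 5)) i)) = fun i => zp z 1 * x1 i := rfl
      rw [e1] at hB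
      refine ⟨_, hB, ?_, B1.relabel_const 1 (hz p pK) h5, B1.relabel_const 1 (hz q qK) h6, ?_⟩
      · rw [zp_one]
        exact L.mul_mem h.hzL (h4 ▸ hy4L)
      · have hxz := B1.pts.comm_z B1.pl
        simp only [zp_one]
        have hzz := B1.pl.sq
        have m : ∀ i w, x1 i * (z * w) = z * (x1 i * w) := by
          intro i w; rw [← mul_assoc, hxz, mul_assoc]
        have mz : ∀ w, z * (z * w) = w := by intro w; rw [← mul_assoc, hzz, one_mul]
        simp only [mul_assoc, m, mz, hprod, hxz]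
        simp [hprod, hzz]
  obtain ⟨x2, B2, k1, k2, k3, k4⟩ := key
  exact ⟨x2, p, q, B2, k4, k1, pK, qK, p3, q3, p1, q1, hpq, hpq1, k2, k3, hKQ⟩

end Cfsg.Agent.LE
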