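import Cfsg.Agent.LE.J2Top
import Cfsg.Agent.CosetEnum.Level
import Cfsg.Agent.CosetEnum.J2U.Certs

/-!
Uniqueness of groups of `J₂` type: they are isomorphic to a fixed finitely presented group (owner: helper58).
-/
set_option autoImplicit false
set_option linter.unusedSimpArgs false

namespace Cfsg.Agent.LE

open Subgroup Cfsg.Agent.H90 Cfsg.Agent.CosetEnum

/-- the family of generators -/
def fam {G : Type*} [Group G] (z p q r f : G) (x : Fin 5 → G) : ℕ → G
  | 1 => p
  | 2 => p⁻¹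
  | 3 => q
  | 4 => q⁻¹
  | 5 => r
  | 6 => r⁻¹
  | 7 => x 0
  | 8 => x 1
  | 9 => x 2
  | 10 => x 3
  | 11 => x 4
  | 12 => z
  | 13 => f
  | 14 => f⁻¹
  | _ => 1

/-- the universal group -/
abbrev QJ : Type := QG 14 J2UC.iv J2UC.RL

theorem bdQJ : Bd (⊤ : Subgroup QJ) 604800 := by
  have U := univ_qg 14 J2UC.iv J2UC.RL
  have g := U.good
  rw [← U.top]
  have h1 := (Bd.zero (qg 14 J2UC.iv J2UC.RL)).cl (M := 60) J2UA.cert g (by decide +kernel) (by decide +kernel)
    (by norm_num) rfl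
  have h2 := h1.cl (M := 1920) J2UB.cert g (by decide +kernel) (by decide +kernel) (by norm_num) rfl
  exact h2.cl (M := 604800) J2UC.cert g (by decide +kernel) (by decide +kernel) (by norm_num) rfl

theorem card_QJ_le : Finite QJ ∧ Nat.card QJ ≤ 604800 := by
  obtain ⟨h1, h2⟩ := bdQJ
  have : Finite QJ := Finite.of_equiv _ (Subgroup.topEquiv (G := QJ)).toEquiv
  exact ⟨this, by rwa [Subgroup.card_top] at h2⟩

/-- a group of order `604800` with a generating family satisfying the relations -/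
theorem iso_QJ {G : Type*} [Group G] {g : ℕ → G} (hg : Good g 14 J2UC.iv J2UC.RL) (htop : Cl g 14 = ⊤)
    (hcard : Nat.card G = 604800) : Nonempty (QJ ≃* G) := by
  obtain ⟨φ, hφ⟩ := qg_univ hg
  obtain ⟨h1, h2⟩ := card_QJ_le
  have hfin : Finite G := Nat.finite_of_card_ne_zero (by rw [hcard]; norm_num)
  have hsurj : Function.Surjective φ := by
    rw [← MonoidHom.range_eq_top, eq_top_iff, ← htop]
    unfold Cl
    rw [Subgroup.closure_le]
    rintro _ ⟨x, _, rfl⟩
    exact ⟨_, hφ x⟩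
  have hbij : Function.Bijective φ := by
    rw [Nat.bijective_iff_surjective_and_card]
    refine ⟨hsurj, ?_⟩
    have h3 : Nat.card G ≤ Nat.card QJ := Nat.card_le_card_of_surjective φ hsurj
    exact le_antisymm (by rw [hcard]; exact h2) h3
  exact ⟨MulEquiv.ofBijective φ hbij⟩

variable {G : Type*} [Group G]

theorem rel_conj {p a b : G} (h : p * a = b * p) (hb : b * b = 1) : p * (a * (p⁻¹ * b)) = 1 := by
  calc p * (a * (p⁻¹ * b)) = (p * a) * p⁻¹ * b := by group
    _ = b * b := by rw [h]; group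
    _ = 1 := hb

theorem rel_comm {z p : G} (h : p * z = z * p) (hz : z * z = 1) : z * (p * (z * p⁻¹)) = 1 := by
  calc z * (p * (z * p⁻¹)) = z * (p * z) * p⁻¹ := by group
    _ = z * z := by rw [h]; group
    _ = 1 := hz

theorem rel_comm2 {f p : G} (h : f * p = p * f) : f * (p * (f⁻¹ * p⁻¹)) = 1 := by
  calc f * (p * (f⁻¹ * p⁻¹)) = (f * p) * f⁻¹ * p⁻¹ := by group
    _ = 1 := by rw [h]; group

variable [Finite G] {Q : Subgroup G} {z v : G} {x x0 : Fin 5 → G}

theorem good_fam {E L K : Subgroup G} {p q r f : G} (R : J2Rel Q z x E L K p q r f) (h : J2Loc z v E L K) :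
    Good (fam z p q r f x) 14 J2UC.iv J2UC.RL := by
  have P := R.P
  have B := P.B
  have C := P.clif
  have zi : z⁻¹ = z := inv_eq_of_mul_eq_one_left C.zz
  have xi : ∀ i, (x i)⁻¹ = x i := fun i => inv_eq_of_mul_eq_one_left (C.xx i)
  have pz : p * z = z * p := h.comm p P.pK z h.hzL
  have qz : q * z = z * q := h.comm q P.qK z h.hzL
  have fp : f * p = p * f := (h.comm p P.pK f R.fL).symm
  have fq : f * q = q * f := (h.comm q P.qK f R.fL).symm
  have pc := fun i => pure_comm P.ap i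
  have qc := fun i => pure_comm P.aq i
  have rc := fun i => pure_comm R.ar i
  refine ⟨?_, ?_, ?_⟩
  · intro n
    rcases n with _ | _ | _ | _ | _ | _ | _ | _ | _ | _ | _ | _ | _ | _ | _ | n
    · simp [J2UC.iv, ivL, fam]
    · simp [J2UC.iv, ivL, fam]
    · simp [J2UC.iv, ivL, fam]
    · simp [J2UC.iv, ivL, fam]
    · simp [J2UC.iv, ivL, fam]
    · simp [J2UC.iv, ivL, fam]
    · simp [J2UC.iv, ivL, fam]
    · simp [J2UC.iv, ivL, fam, xi]
    · simp [J2UC.iv, ivL, fam, xi]
    · simp [J2UC.iv, ivL, fam, xi]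
    · simp [J2UC.iv, ivL, fam, xi]
    · simp [J2UC.iv, ivL, fam, xi]
    · simp [J2UC.iv, ivL, fam, zi]
    · simp [J2UC.iv, ivL, fam]
    · simp [J2UC.iv, ivL, fam]
    · simp [J2UC.iv, ivL, fam]
  · intro n hn
    rcases n with _ | _ | _ | _ | _ | _ | _ | _ | _ | _ | _ | _ | _ | _ | _ | n
    · rfl
    · exact absurd hn (by decide)
    · exact absurd hn (by decide)
    · exact absurd hn (by decide)
    · exact absurd hn (by decide)
    · exact absurd hn (by decide)
    · exact absurd hn (by decide)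
    · exact absurd hn (by decide)
    · exact absurd hn (by decide)
    · exact absurd hn (by decide)
    · exact absurd hn (by decide)
    · exact absurd hn (by decide)
    · exact absurd hn (by decide)
    · exact absurd hn (by decide)
    · exact absurd hn (by decide)
    · rfl
  · have qr := R.qrel h
    have x4i := xi 4
    have last : f * (f * (x 4 * (f⁻¹ * (x 1 * (x 2 * (f * (x 4 * (f⁻¹ * (f⁻¹ * (x 4 * (x 1 * (x 0 *
        (q⁻¹ * p⁻¹))))))))))))) = 1 := by
      have e1 : f * (f * (x 4 * (f⁻¹ * (x 1 * (x 2 * (f * (x 4 * (f⁻¹ * (f⁻¹ * (x 4 * (x 1 * (x 0 *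
          (q⁻¹ * p⁻¹))))))))))))) = ((f * f * x 4 * f⁻¹) * (x 1 * x 2) * (f * f * x 4 * f⁻¹)⁻¹) *
          (p * q * (x 0 * x 1) * x 4)⁻¹ := by
        simp only [mul_inv_rev, inv_inv, xi]
        group
      rw [e1, qr, mul_inv_cancel]
    have zx : ∀ i, (z * x i) ^ 2 = 1 := by
      intro i
      rw [pow_two, mul_assoc, C.xz', C.xx, mul_one, C.zz]
    have xxz : ∀ i j, i ≠ j → x i * (x j * (x i * (x j * z))) = 1 := by
      intro i j hij
      rw [C.anti' j i (Ne.symm hij), C.xz', C.xx', C.xx', C.zz]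
    simp only [J2UC.RL, List.mem_cons, List.not_mem_nil, or_false, forall_eq_or_imp, forall_eq]
    simp only [List.map_cons, List.map_nil, List.prod_cons, List.prod_nil, fam, mul_one, pow_one]
    have P2 : (p * q) ^ 2 = 1 := by rw [pow_two]; exact P.pq
    have P3 : (p * r) ^ 2 = 1 := by rw [pow_two]; exact R.pr
    have P4 : (q * r) ^ 2 = 1 := by rw [pow_two]; exact R.qr
    have P5 : (z * f) ^ 2 = 1 := by rw [pow_two]; exact R.zf
    have P6 : (x 4 * f) ^ 3 = 1 := by rw [pow_succ, pow_two, mul_assoc]; exact R.xf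
    refine ⟨P.p3, P.q3, R.r3, P2, P3, P4, ?_⟩
    refine ⟨rel_conj (pc 0) (C.xx _), rel_conj (pc 1) (C.xx _), rel_conj (pc 2) (C.xx _),
      rel_conj (pc 3) (C.xx _), rel_conj (pc 4) (C.xx _), ?_⟩
    refine ⟨rel_conj (qc 0) (C.xx _), rel_conj (qc 1) (C.xx _), rel_conj (qc 3) (C.xx _),
      rel_conj (qc 2) (C.xx _), rel_conj (qc 4) (C.xx _), ?_⟩
    refine ⟨rel_conj (rc 0) (C.xx _), rel_conj (rc 1) (C.xx _), rel_conj (rc 4) (C.xx _),
      rel_conj (rc 2) (C.xx _), rel_conj (rc 3) (C.xx _), ?_⟩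
    refine ⟨rel_comm pz C.zz, rel_comm qz C.zz, rel_comm R.rz C.zz, zx 0, zx 1, zx 2, zx 3, zx 4, ?_⟩
    refine ⟨xxz 0 1 (by decide), xxz 0 2 (by decide), xxz 0 3 (by decide), xxz 0 4 (by decide),
      xxz 1 2 (by decide), xxz 1 3 (by decide), xxz 1 4 (by decide), xxz 2 3 (by decide),
      xxz 2 4 (by decide), xxz 3 4 (by decide), C.prod, ?_⟩
    exact ⟨R.f5, P5, rel_comm2 fp, rel_comm2 fq, rel_comm2 R.fr, P6, last⟩

theorem top_fam {E L K : Subgroup G} {p q r f : G} (S : J2Set Q z x0 v) (h : J2Loc z v E L K)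
    (R : J2Rel Q z x E L K p q r f) : Cl (fam z p q r f x) 14 = ⊤ := by
  have m : ∀ n, isLet 14 n = true → fam z p q r f x n ∈ Cl (fam z p q r f x) 14 := fun n hn => mem_Cl _ hn
  refine R.top S h (m 12 rfl) ?_ (m 1 rfl) (m 3 rfl) (m 5 rfl) (m 13 rfl)
  intro i
  fin_cases i
  · exact m 7 rfl
  · exact m 8 rfl
  · exact m 9 rfl
  · exact m 10 rfl
  · exact m 11 rfl

/-- **Uniqueness** of groups of `J₂` type. -/
theorem uniq {E L : Subgroup G} (S : J2Set Q z x0 v) (W : J2M Q z v E L) : Nonempty (QJ ≃* G) := by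
  obtain ⟨K, h⟩ := W.j2Loc S
  obtain ⟨x, p, q, P⟩ := exists_pre S W h
  obtain ⟨r, f, R⟩ := exists_rel P h
  exact iso_QJ (good_fam R h) (top_fam S h R) h.cardG

end Cfsg.Agent.LE
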