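import Cfsg.Agent.LE.TabGood
import Cfsg.Agent.LE.J2TabData
import Cfsg.Agent.LE.J2Uniq
import Cfsg.Agent.LE.J2Bridge
import Cfsg.Agent.Ico.Group

/-!
The Hall–Janko group is the group of the presentation `QJ` (owner: helper58).
-/
set_option autoImplicit false

namespace Cfsg.Agent.LE

open Cfsg.Agent.PermTab Cfsg.Agent.CosetEnum Cfsg.Agent

theorem tb_big (x : ℕ) (hx : 14 < x) : J2T.tb x = J2Tab.idt := by
  match x, hx with
  | n + 15, _ => rfl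

theorem tb_ok : ∀ x ≤ 14, tvalid 7 100 (J2T.tb x) = true ∧ sift 7 100 J2Tab.idt J2Tab.chain (J2T.tb x) = true := by
  decide +kernel

theorem idt_ok : tvalid 7 100 J2Tab.idt = true ∧ sift 7 100 J2Tab.idt J2Tab.chain J2Tab.idt = true := by
  decide +kernel

theorem tb_in (x : ℕ) : InGrp 7 100 J2Tab.J (J2T.tb x) := by
  have h : tvalid 7 100 (J2T.tb x) = true ∧ sift 7 100 J2Tab.idt J2Tab.chain (J2T.tb x) = true := by
    by_cases hx : x ≤ 14
    · exact tb_ok x hx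
    · rw [tb_big x (by omega)]; exact idt_ok
  exact ⟨h.1, mem_of_sift (by norm_num) J2Tab.hid J2Tab.chk h.1 h.2⟩

theorem tb_rel : chkRels 7 100 J2Tab.idt J2T.tb J2UC.RL = true := by decide +kernel

theorem good_tb : Good (tfam tb_in) 14 J2UC.iv J2UC.RL := by
  refine good_tfam (by norm_num) J2Tab.hid tb_in ?_ ?_ rfl tb_big tb_rel
  · decide +kernel
  · intro x hx
    match x, hx with
    | n + 15, _ => simp [J2UC.iv, ivL]

theorem w_ok : tword 7 100 J2Tab.idt J2T.tb J2T.w0 = J2Tab.g0 ∧ tword 7 100 J2Tab.idt J2T.tb J2T.w1 = J2Tab.g1 ∧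
    (∀ x ∈ J2T.w0, isLet 14 x = true) ∧ (∀ x ∈ J2T.w1, isLet 14 x = true) := by
  decide +kernel

theorem prod_mem_Cl {G : Type*} [Group G] (g : ℕ → G) (k : ℕ) (u : List ℕ) (hu : ∀ x ∈ u, isLet k x = true) :
    (u.map g).prod ∈ Cl g k := by
  apply Subgroup.list_prod_mem
  intro y hy
  obtain ⟨x, hx, rfl⟩ := List.mem_map.1 hy
  exact mem_Cl _ (hu x hx)

theorem top_tb : Cl (tfam tb_in) 14 = ⊤ := by
  obtain ⟨h0, h1, h2, h3⟩ := w_ok
  have s0 := (tword_spec (by norm_num) J2Tab.hid tb_in J2T.w0).2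
  have s1 := (tword_spec (by norm_num) J2Tab.hid tb_in J2T.w1).2
  rw [h0] at s0
  rw [h1] at s1
  have key : J2Tab.J ≤ (Cl (tfam tb_in) 14).map J2Tab.J.subtype := by
    conv_lhs => rw [← J2Tab.gen_J]
    rw [Subgroup.closure_le]
    rintro _ ⟨g, hg, rfl⟩
    rcases List.mem_cons.1 hg with rfl | hg
    · exact ⟨_, prod_mem_Cl _ _ _ h2, s0.symm⟩
    · rcases List.mem_cons.1 hg with rfl | hg
      · exact ⟨_, prod_mem_Cl _ _ _ h3, s1.symm⟩
      · exact absurd hg List.not_mem_nil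
  rw [eq_top_iff]
  intro x _
  obtain ⟨y, hy, he⟩ := key x.2
  have : y = x := Subtype.ext he
  rwa [this] at hy

theorem isoQJ_J : Nonempty (QJ ≃* J2Tab.J) := iso_QJ good_tb top_tb J2Tab.card_J

/-- the group of the presentation is `Spor.J2` -/
theorem isoQJ_J2 : Nonempty (QJ ≃* Cfsg.Spor.J2) := by
  obtain ⟨e⟩ := isoQJ_J
  exact ⟨e.trans Ico.isoJ.symm⟩

open Cfsg.Agent.H90 in
/-- **Uniqueness of `J₂`.** -/
theorem isoJ2 {G : Type*} [Group G] [Finite G] {Q E L : Subgroup G} {z v : G} {x0 : Fin 5 → G}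
    (S : J2Set Q z x0 v) (W : J2M Q z v E L) : Nonempty (G ≃* Cfsg.Spor.J2) := by
  obtain ⟨e⟩ := uniq S W
  obtain ⟨e'⟩ := isoQJ_J2
  exact ⟨e.symm.trans e'⟩

theorem exists_not_isConj {G : Type*} [Group G] {z : G} (hcl : ∃ x y : G, orderOf x = 2 ∧ orderOf y = 2 ∧ ¬ IsConj x y) :
    ∃ t : G, orderOf t = 2 ∧ ¬ IsConj t z := by
  obtain ⟨a, b, ha, hb, hab⟩ := hcl
  by_cases haz : IsConj a z
  · exact ⟨b, hb, fun h => hab (haz.trans h.symm)⟩
  · exact ⟨a, ha, haz⟩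

open Cfsg.Agent.H90 in
theorem Base.isoJ2 {G : Type*} [Group G] [Finite G] {Q : Subgroup G} {z : G} {x : Fin 5 → G} (B : Base Q z x)
    (nwc : ∃ g, g * z * g⁻¹ ∈ Q ∧ g * z * g⁻¹ ≠ z) (hcl : ∃ x y : G, orderOf x = 2 ∧ orderOf y = 2 ∧ ¬ IsConj x y) :
    Nonempty (G ≃* Cfsg.Spor.J2) := by
  obtain ⟨t, ht, htz⟩ := exists_not_isConj (z := z) hcl
  obtain ⟨g, S⟩ := B.j2set nwc ht htz
  obtain ⟨E, L, W⟩ := S.caseM.resolve_left S.not_48
  exact LE.isoJ2 S W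

end Cfsg.Agent.LE
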