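import Cfsg.Agent.LE.J2Bridge

/-!
`C(t) ≅ 2² × A₅` and `N(O₂(C(t))) ≅ A₄ × A₅` in a group of Hall–Janko type (owner: helper58).
-/
set_option autoImplicit false

namespace Cfsg.Agent.LE

open Subgroup

theorem klein_equiv {E : Type*} [Group E] (h4 : Nat.card E = 4) (hsq : ∀ e : E, e * e = 1) :
    Nonempty (E ≃* Multiplicative (ZMod 2) × Multiplicative (ZMod 2)) := by
  have h0 : Nontrivial E := by
    have : Finite E := Nat.finite_of_card_ne_zero (by omega)
    rw [← Finite.one_lt_card_iff_nontrivial]; omega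
  have : IsKleinFour E := ⟨h4, by
    have h1 : Monoid.exponent E ∣ 2 := Monoid.exponent_dvd_of_forall_pow_eq_one
      (fun g => by rw [pow_two]; exact hsq g)
    rcases (Nat.dvd_prime Nat.prime_two).mp h1 with h | h
    · rw [Monoid.exp_eq_one_iff] at h
      exact absurd h (not_subsingleton E)
    · exact h⟩
  have h2 : IsKleinFour (Multiplicative (ZMod 2) × Multiplicative (ZMod 2)) := ⟨by simp, by
    have h1 : Monoid.exponent (Multiplicative (ZMod 2) × Multiplicative (ZMod 2)) ∣ 2 :=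
      Monoid.exponent_dvd_of_forall_pow_eq_one (by decide)
    rcases (Nat.dvd_prime Nat.prime_two).mp h1 with h | h
    · rw [Monoid.exp_eq_one_iff] at h
      exact absurd h (not_subsingleton _)
    · exact h⟩
  exact IsKleinFour.nonempty_mulEquiv

variable {G : Type*} [Group G]

theorem sup_equiv {A B : Subgroup G} (hc : ∀ a ∈ A, ∀ b ∈ B, a * b = b * a) (hd : A ⊓ B = ⊥) :
    Nonempty (↥(A ⊔ B) ≃* A × B) := by
  have h1 := MonoidHom.noncommCoprod_range A.subtype B.subtype (fun a b => hc a a.2 b b.2)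
  rw [A.range_subtype, B.range_subtype] at h1
  have hinj : Function.Injective (MonoidHom.noncommCoprod A.subtype B.subtype (fun a b => hc a a.2 b b.2)) := by
    rintro ⟨a, b⟩ ⟨a', b'⟩ h
    obtain ⟨e1, e2⟩ := mul_inj_of_disjoint hd a.2 a'.2 b.2 b'.2 (show (a : G) * b = a' * b' from h)
    exact Prod.ext (Subtype.ext e1) (Subtype.ext e2)
  exact ⟨(MulEquiv.subgroupCongr h1.symm).trans (MonoidHom.ofInjective hinj).symm⟩

theorem pCore_map_sub {p : ℕ} {H : Type*} [Group H] (f : G →* H) (hf : Function.Injective f) (X : Subgroup G) :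
    ((Cfsg.pCore p X).map X.subtype).map f = (Cfsg.pCore p (X.map f)).map (X.map f).subtype := by
  have h1 := H49.pCore_map_equiv (p := p) (X.equivMapOfInjective f hf)
  rw [← h1, Subgroup.map_map, Subgroup.map_map]
  congr 1

variable [Finite G] {z t : G} {E L K : Subgroup G}

theorem J2Loc.pCore_eq (h : J2Loc z t E L K) :
    (Cfsg.pCore 2 (centralizer ({t} : Set G))).map (centralizer ({t} : Set G)).subtype = E := by
  have ht1 : t ≠ 1 := by
    intro h1
    have := h.ht
    rw [h1, orderOf_one] at this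
    omega
  have hC := h.hCE t h.htE ht1
  have hcomm : ∀ e ∈ E, ∀ l ∈ L, e * l = l * e := fun e he l hl => h.comm e (h.hEK he) l hl
  have hdisj : E ⊓ L = ⊥ := by
    rw [eq_bot_iff, ← h.disj]
    exact inf_le_inf_right _ h.hEK
  have : Fact (Nat.Prime 2) := ⟨Nat.prime_two⟩
  rw [hC]
  have hnE : E ⊔ L ≤ normalizer (E : Set G) := by
    rw [h.hNE]
    exact sup_le_sup_right h.hEK _
  have hEO := H49.le_pCoreOf (p := 2) (le_sup_left : E ≤ E ⊔ L) hnE
    (IsPGroup.of_card (n := 2) (by rw [h.cardE]; rfl))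
  apply le_antisymm _ hEO
  set O : Subgroup G := (Cfsg.pCore 2 ↥(E ⊔ L)).map (E ⊔ L).subtype with hOdef
  have hOn : E ⊔ L ≤ normalizer (O : Set G) :=
    le_normalizer.trans (H49.normalizer_le_normalizer_pCoreOf 2 (E ⊔ L))
  have hOp : IsPGroup 2 O := H49.isPGroup_pCoreOf 2 (E ⊔ L)
  have hOle : O ≤ E ⊔ L := H49.pCoreOf_le 2 (E ⊔ L)
  obtain ⟨eL⟩ := h.eL
  have hsimp : IsSimpleGroup L := by
    have := alternatingGroup.isSimpleGroup (α := Fin 5) (by simp)
    exact eL.isSimpleGroup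
  have hLO : O.subgroupOf L = ⊥ := by
    have hn : (O.subgroupOf L).Normal := ⟨fun o ho l => by
      rw [mem_subgroupOf] at ho ⊢
      have := (mem_normalizer_iff.mp (hOn (le_sup_right (a := E) l.2)) (o : G)).mp ho
      exact this⟩
    rcases hn.eq_bot_or_eq_top with h1 | h1
    · exact h1
    · exfalso
      have h2 : IsPGroup 2 L := by
        rw [subgroupOf_eq_top] at h1
        exact hOp.to_le h1
      obtain ⟨n, hn⟩ := IsPGroup.iff_card.mp h2
      have h60 : Nat.card L = 60 := by rw [Nat.card_congr eL.toEquiv, a5_card]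
      have h3 : 3 ∣ 2 ^ n := by rw [← hn, h60]; norm_num
      have := (Nat.prime_three.dvd_of_dvd_pow h3)
      omega
  intro o ho
  obtain ⟨e, he, l, hl, rfl⟩ := (mem_sup_comm hcomm).mp (hOle ho)
  have hlO : l ∈ O := by
    have := O.mul_mem (O.inv_mem (hEO he)) ho
    rwa [inv_mul_cancel_left] at this
  have h1 : (⟨l, hl⟩ : L) ∈ O.subgroupOf L := by rw [mem_subgroupOf]; exact hlO
  rw [hLO, mem_bot] at h1
  have h2 : l = 1 := congrArg Subtype.val h1
  rw [h2, mul_one]
  exact he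

theorem J2Loc.cent_iso (h : J2Loc z t E L K) :
    Nonempty (↥(centralizer ({t} : Set G)) ≃*
      (Multiplicative (ZMod 2) × Multiplicative (ZMod 2)) × alternatingGroup (Fin 5)) := by
  have ht1 : t ≠ 1 := by
    intro h1
    have := h.ht
    rw [h1, orderOf_one] at this
    omega
  have hC := h.hCE t h.htE ht1
  have hcomm : ∀ e ∈ E, ∀ l ∈ L, e * l = l * e := fun e he l hl => h.comm e (h.hEK he) l hl
  have hdisj : E ⊓ L = ⊥ := by
    rw [eq_bot_iff, ← h.disj]
    exact inf_le_inf_right _ h.hEK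
  obtain ⟨e1⟩ := sup_equiv hcomm hdisj
  obtain ⟨e2⟩ := klein_equiv h.cardE (fun e => Subtype.ext (h.Esq e e.2))
  obtain ⟨e3⟩ := h.eL
  exact ⟨(MulEquiv.subgroupCongr hC).trans (e1.trans (MulEquiv.prodCongr e2 e3))⟩

theorem J2Loc.norm_iso (h : J2Loc z t E L K) :
    Nonempty (↥(normalizer (E : Set G)) ≃* alternatingGroup (Fin 4) × alternatingGroup (Fin 5)) := by
  obtain ⟨e1⟩ := sup_equiv h.comm h.disj
  obtain ⟨e2⟩ := h.eK
  obtain ⟨e3⟩ := h.eL
  exact ⟨(MulEquiv.subgroupCongr h.hNE).trans (e1.trans (MulEquiv.prodCongr e2 e3))⟩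

theorem j2_cent_norm (z : G) (hz : orderOf z = 2) (Q : Subgroup (Subgroup.centralizer ({z} : Set G)))
    [Q.Normal] (hF : Cfsg.generalizedFittingSubgroup (Subgroup.centralizer ({z} : Set G)) = Q)
    (hQ : Cfsg.IsExtraspecial 2 Q) (hcard : Nat.card Q = 2 ^ 5)
    (e : (Subgroup.centralizer ({z} : Set G)) ⧸ Q ≃* Cfsg.Omega (ZMod 2) (Cfsg.quadFormMinus 1 (ZMod 2) 1 1))
    (hnwc : ∃ g : G, (∃ hq : g * z * g⁻¹ ∈ Subgroup.centralizer ({z} : Set G),
      (⟨g * z * g⁻¹, hq⟩ : Subgroup.centralizer ({z} : Set G)) ∈ Q) ∧ g * z * g⁻¹ ≠ z)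
    (t : G) (ht : orderOf t = 2) (htz : ¬ IsConj t z) :
    Nonempty (↥(centralizer ({t} : Set G)) ≃*
      (Multiplicative (ZMod 2) × Multiplicative (ZMod 2)) × alternatingGroup (Fin 5)) ∧
    Nonempty (↥(normalizer (((Cfsg.pCore 2 ↥(centralizer ({t} : Set G))).map
      (centralizer ({t} : Set G)).subtype : Subgroup G) : Set G)) ≃*
      alternatingGroup (Fin 4) × alternatingGroup (Fin 5)) := by
  obtain ⟨g, E, L, K, h⟩ := exists_j2Loc z hz Q hF hQ hcard e hnwc ht htz
  have hC : (centralizer ({t} : Set G)).map (MulAut.conj g).toMonoidHom =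
      centralizer ({g * t * g⁻¹} : Set G) := by
    ext a
    constructor
    · rintro ⟨b, hb, rfl⟩
      rw [mem_cent]
      exact conj_comm (mem_cent.mp hb)
    · intro ha
      refine ⟨g⁻¹ * a * g, ?_, ?_⟩
      · rw [SetLike.mem_coe, mem_cent]
        have := conj_comm (g := g⁻¹) (mem_cent.mp ha)
        have e1 : g⁻¹ * (g * t * g⁻¹) * g⁻¹⁻¹ = t := by group
        rw [e1, inv_inv] at this
        exact this
      · change g * (g⁻¹ * a * g) * g⁻¹ = a
        group
  have hinj : Function.Injective (MulAut.conj g).toMonoidHom := (MulAut.conj g).injective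
  constructor
  · obtain ⟨e1⟩ := h.cent_iso
    exact ⟨((centralizer ({t} : Set G)).equivMapOfInjective _ hinj).trans
      ((MulEquiv.subgroupCongr hC).trans e1)⟩
  · have h1 := pCore_map_sub (p := 2) _ hinj (centralizer ({t} : Set G))
    rw [hC, h.pCore_eq] at h1
    obtain ⟨e1⟩ := h.norm_iso
    rw [← h1] at e1
    have h2 := Subgroup.map_equiv_normalizer_eq ((Cfsg.pCore 2 ↥(centralizer ({t} : Set G))).map
      (centralizer ({t} : Set G)).subtype) (MulAut.conj g)
    refine ⟨(Subgroup.equivMapOfInjective _ _ hinj).trans ((MulEquiv.subgroupCongr h2).trans e1)⟩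

end Cfsg.Agent.LE
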