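import Cfsg.Agent.LE.J2Fus

/-!
Normalising the labels of the five points so that a given `A₄` acts by pure permutations (owner: helper58).
-/
set_option autoImplicit false

namespace Cfsg.Agent.LE

open Subgroup Cfsg.Agent.H90

/-- `(0 1 2)` -/
def v2 : Equiv.Perm (Fin 5) := Equiv.swap 0 1 * Equiv.swap 1 2
/-- `(0 1 3)` -/
def v3 : Equiv.Perm (Fin 5) := Equiv.swap 0 1 * Equiv.swap 1 3
/-- `(0 1 4)` -/
def v4 : Equiv.Perm (Fin 5) := Equiv.swap 0 1 * Equiv.swap 1 4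

theorem v2_mem : v2 ∈ alternatingGroup (Fin 5) := Equiv.Perm.mem_alternatingGroup.mpr (by decide)
theorem v3_mem : v3 ∈ alternatingGroup (Fin 5) := Equiv.Perm.mem_alternatingGroup.mpr (by decide)
theorem v4_mem : v4 ∈ alternatingGroup (Fin 5) := Equiv.Perm.mem_alternatingGroup.mpr (by decide)

set_option synthInstance.maxHeartbeats 200000 in
set_option synthInstance.maxSize 1000 in
set_option maxRecDepth 100000 in
theorem conj_v2v3 : ∀ a : Equiv.Perm (Fin 5), (a 4 = 4 ∧ a * (a * a) = 1 ∧ a ≠ 1) →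
    ∀ b : Equiv.Perm (Fin 5), (b 4 = 4 ∧ b * (b * b) = 1 ∧ b ≠ 1 ∧ (a * b) * (a * b) = 1 ∧ a * b ≠ 1) →
    ∃ π : Equiv.Perm (Fin 5), π 4 = 4 ∧ π⁻¹ * a * π = v2 ∧ π⁻¹ * b * π = v3 := by
  decide +kernel

set_option synthInstance.maxHeartbeats 200000 in
set_option synthInstance.maxSize 1000 in
set_option maxRecDepth 100000 in
theorem sgn_fix : ∀ s : Fin 5 → ZMod 2, (s 4 = 0 ∧ ∀ i, s i + (s (v2 i) + s (v2 (v2 i))) = 0) →
    ∀ t : Fin 5 → ZMod 2, (t 4 = 0 ∧ (∀ i, t i + (t (v3 i) + t (v3 (v3 i))) = 0) ∧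
    (∀ i, (t i + s (v3 i)) + (t (v2 (v3 i)) + s (v3 (v2 (v3 i)))) = 0)) →
    ∃ a : Fin 5 → ZMod 2, a 4 = 0 ∧ (∀ i, a i + s i + a (v2 i) = 0) ∧ (∀ i, a i + t i + a (v3 i) = 0) := by
  decide +kernel

variable {G : Type*} [Group G] [Finite G] {Q : Subgroup G} {z : G} {x : Fin 5 → G}

namespace Base

theorem act_comm (B : Base Q z x) {c : G} {σ : Equiv.Perm (Fin 5)} {s : Fin 5 → ZMod 2}
    (h1 : Act z x c σ s) {i : Fin 5} (hi : c * x i = x i * c) : σ i = i ∧ s i = 0 := by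
  have h2 := h1 i
  rw [hi, mul_inv_cancel_right] at h2
  have h3 : zp z 0 * x i = zp z (s i) * x (σ i) := by rw [zp_zero, one_mul]; exact h2
  obtain ⟨h4, h5⟩ := B.pts.eq_of B.pl h3
  exact ⟨h4.symm, h5.symm⟩

theorem act_three (B : Base Q z x) {c : G} (hc : c * z = z * c) {σ : Equiv.Perm (Fin 5)} {s : Fin 5 → ZMod 2}
    (h1 : Act z x c σ s) (h3 : c * (c * c) = 1) :
    σ * (σ * σ) = 1 ∧ ∀ i, s i + (s (σ i) + s (σ (σ i))) = 0 := by
  have h2 := act_mul B.pl hc h1 (act_mul B.pl hc h1 h1)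
  rw [h3] at h2
  obtain ⟨h4, h5⟩ := act_unique B.pl B.pts h2 (act_one B.pl)
  refine ⟨h4, fun i => ?_⟩
  have := congrFun h5 i
  simp only [Pi.zero_apply, Equiv.Perm.mul_apply] at this
  rw [← this]; ring

theorem act_two (B : Base Q z x) {c : G} (hc : c * z = z * c) {σ : Equiv.Perm (Fin 5)} {s : Fin 5 → ZMod 2}
    (h1 : Act z x c σ s) (h3 : c * c = 1) :
    σ * σ = 1 ∧ ∀ i, s i + s (σ i) = 0 := by
  have h2 := act_mul B.pl hc h1 h1
  rw [h3] at h2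
  obtain ⟨h4, h5⟩ := act_unique B.pl B.pts h2 (act_one B.pl)
  exact ⟨h4, fun i => by simpa using congrFun h5 i⟩

/-- the labels can be chosen such that `p`, `q` act as the pure permutations `(0 1 2)`, `(0 1 3)`. -/
theorem exists_labels (B : Base Q z x) {p q : G} (hpz : p * z = z * p) (hqz : q * z = z * q)
    (hp4 : p * x 4 = x 4 * p) (hq4 : q * x 4 = x 4 * q) (hp3 : p * (p * p) = 1) (hq3 : q * (q * q) = 1)
    (hpq : (p * q) * (p * q) = 1) (hp : p ∉ Q) (hq : q ∉ Q) (hpqQ : p * q ∉ Q) :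
    ∃ x' : Fin 5 → G, Base Q z x' ∧ x' 4 = x 4 ∧ Act z x' p v2 0 ∧ Act z x' q v3 0 := by
  obtain ⟨σ, -, s, -, h1⟩ := B.act hpz
  obtain ⟨τ, -, t, -, h2⟩ := B.act hqz
  have hpqz := mul_comm_z B hpz hqz
  obtain ⟨k1, -⟩ := B.act_comm h1 hp4
  obtain ⟨k2, -⟩ := B.act_comm h2 hq4
  obtain ⟨k3, -⟩ := B.act_three hpz h1 hp3
  obtain ⟨k4, -⟩ := B.act_three hqz h2 hq3
  obtain ⟨k5, -⟩ := B.act_two hpqz (act_mul B.pl hpz h1 h2) hpq
  obtain ⟨π, hπ4, hπ1, hπ2⟩ := conj_v2v3 σ ⟨k1, k3, B.sigma_ne_one hp hpz h1⟩ τ ⟨k2, k4,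
    B.sigma_ne_one hq hqz h2, k5, B.sigma_ne_one hpqQ hpqz (act_mul B.pl hpz h1 h2)⟩
  have B1 := B.relabel π 0
  have h3 := B.act_relabel π 0 hpz h1
  have h4 := B.act_relabel π 0 hqz h2
  rw [hπ1] at h3
  rw [hπ2] at h4
  simp only [Pi.zero_apply, zero_add, add_zero] at h3 h4
  set y : Fin 5 → G := fun i => zp z ((0 : Fin 5 → ZMod 2) i) * x (π i) with hy
  have hy4 : y 4 = x 4 := by simp [hy, zp_zero, hπ4]
  obtain ⟨-, m1⟩ := B1.act_comm h3 (by rw [hy4]; exact hp4)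
  obtain ⟨-, m2⟩ := B1.act_comm h4 (by rw [hy4]; exact hq4)
  obtain ⟨-, m3⟩ := B1.act_three hpz h3 hp3
  obtain ⟨-, m4⟩ := B1.act_three hqz h4 hq3
  obtain ⟨-, m5⟩ := B1.act_two hpqz (act_mul B1.pl hpz h3 h4) hpq
  obtain ⟨a, ha4, ha1, ha2⟩ := sgn_fix _ ⟨m1, m3⟩ _ ⟨m2, m4, fun i => m5 i⟩
  have B2 := B1.relabel 1 a
  have h5 := B1.act_relabel 1 a hpz h3
  have h6 := B1.act_relabel 1 a hqz h4
  rw [inv_one, one_mul, mul_one] at h5 h6
  refine ⟨_, B2, ?_, ?_, ?_⟩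
  · simp only [Equiv.Perm.coe_one, id, ha4, zp_zero, one_mul]
    exact hy4
  · intro i
    rw [h5 i]
    congr 2
    simp only [Equiv.Perm.coe_one, id, Pi.zero_apply]
    exact ha1 i
  · intro i
    rw [h6 i]
    congr 2
    simp only [Equiv.Perm.coe_one, id, Pi.zero_apply]
    exact ha2 i

end Base

end Cfsg.Agent.LE
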