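import Cfsg.Agent.LE.J2R

/-!
The last relation (owner: helper58).
-/
set_option autoImplicit false
set_option linter.unusedSimpArgs false

namespace Cfsg.Agent.LE

open Subgroup Cfsg.Agent.H90

section clif

variable {G : Type*} [Group G]

/-- five anticommuting involutions with product one -/
structure Clif (z : G) (x : Fin 5 → G) : Prop where
  zz : z * z = 1
  xz : ∀ i, x i * z = z * x i
  xx : ∀ i, x i * x i = 1
  anti : ∀ i j, i ≠ j → x i * x j = z * (x j * x i)
  prod : x 0 * (x 1 * (x 2 * (x 3 * x 4))) = 1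

namespace Clif

variable {z : G} {x : Fin 5 → G} (C : Clif z x)

include C

theorem anti' (i j : Fin 5) (h : i ≠ j) (w : G) : x i * (x j * w) = z * (x j * (x i * w)) := by
  rw [← mul_assoc, C.anti i j h]; group

theorem xz' (i : Fin 5) (w : G) : x i * (z * w) = z * (x i * w) := by
  rw [← mul_assoc, C.xz, mul_assoc]

theorem xx' (i : Fin 5) (w : G) : x i * (x i * w) = w := by
  rw [← mul_assoc, C.xx, one_mul]

theorem zz' (w : G) : z * (z * w) = w := by
  rw [← mul_assoc, C.zz, one_mul]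

theorem x4 : x 4 = x 0 * (x 1 * (x 2 * x 3)) := by
  have h := C.prod
  have h4 := C.xx 4
  calc x 4 = (x 0 * (x 1 * (x 2 * (x 3 * x 4)))) * x 4 := by rw [h, one_mul]
    _ = x 0 * (x 1 * (x 2 * (x 3 * (x 4 * x 4)))) := by group
    _ = _ := by rw [h4, mul_one]

theorem c1 : x 3 * x 0 = x 4 * (x 1 * x 2) := by
  rw [C.x4]
  simp only [mul_assoc, C.anti 1 0 (by decide), C.anti 2 0 (by decide), C.anti 3 0 (by decide),
    C.anti 2 1 (by decide), C.anti 3 1 (by decide), C.anti 3 2 (by decide),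
    C.anti' 1 0 (by decide), C.anti' 2 0 (by decide), C.anti' 3 0 (by decide),
    C.anti' 2 1 (by decide), C.anti' 3 1 (by decide), C.anti' 3 2 (by decide),
    C.xz, C.xz', C.xx, C.xx', C.zz, C.zz', one_mul, mul_one]

theorem c2 : x 3 * (x 2 * (x 0 * x 1)) = z * x 4 := by
  rw [C.x4]
  simp only [mul_assoc, C.anti 1 0 (by decide), C.anti 2 0 (by decide), C.anti 3 0 (by decide),
    C.anti 2 1 (by decide), C.anti 3 1 (by decide), C.anti 3 2 (by decide),
    C.anti' 1 0 (by decide), C.anti' 2 0 (by decide), C.anti' 3 0 (by decide),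
    C.anti' 2 1 (by decide), C.anti' 3 1 (by decide), C.anti' 3 2 (by decide),
    C.xz, C.xz', C.xx, C.xx', C.zz, C.zz', one_mul, mul_one]

theorem c3 : x 2 * (x 3 * (x 0 * x 1)) = x 4 := by
  rw [C.x4]
  simp only [mul_assoc, C.anti 1 0 (by decide), C.anti 2 0 (by decide), C.anti 3 0 (by decide),
    C.anti 2 1 (by decide), C.anti 3 1 (by decide), C.anti 3 2 (by decide),
    C.anti' 1 0 (by decide), C.anti' 2 0 (by decide), C.anti' 3 0 (by decide),
    C.anti' 2 1 (by decide), C.anti' 3 1 (by decide), C.anti' 3 2 (by decide),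
    C.xz, C.xz', C.xx, C.xx', C.zz, C.zz', one_mul, mul_one]

theorem c4 : x 2 * (x 3 * (x 2 * (x 1 * (x 2 * x 0)))) = x 4 := by
  rw [C.x4]
  simp only [mul_assoc, C.anti 1 0 (by decide), C.anti 2 0 (by decide), C.anti 3 0 (by decide),
    C.anti 2 1 (by decide), C.anti 3 1 (by decide), C.anti 3 2 (by decide),
    C.anti' 1 0 (by decide), C.anti' 2 0 (by decide), C.anti' 3 0 (by decide),
    C.anti' 2 1 (by decide), C.anti' 3 1 (by decide), C.anti' 3 2 (by decide),
    C.xz, C.xz', C.xx, C.xx', C.zz, C.zz', one_mul, mul_one]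

theorem c5 : x 1 * (x 2 * (x 1 * x 2)) = z := by
  simp only [mul_assoc, C.anti 2 1 (by decide), C.anti' 2 1 (by decide),
    C.xz, C.xz', C.xx, C.xx', C.zz, C.zz', one_mul, mul_one]

theorem c6 {i j : Fin 5} (hi : i ≠ 4) (hj : j ≠ 4) : x i * (x j * x 4) = x 4 * (x i * x j) := by
  rw [C.anti j 4 hj, C.xz', C.anti' i 4 hi, C.zz']

end Clif

end clif

variable {G : Type*} [Group G] [Finite G] {Q : Subgroup G} {z v : G} {x : Fin 5 → G}

/-- `(0 3)(1 2)` -/
def ea : Equiv.Perm (Fin 5) := v3 * v2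
/-- `(1 3)(0 2)` -/
def eb : Equiv.Perm (Fin 5) := v2 * v3

set_option synthInstance.maxHeartbeats 200000 in
set_option synthInstance.maxSize 1000 in
set_option maxRecDepth 100000 in
theorem q_sgn : ∀ σ : Equiv.Perm (Fin 5), (σ 4 = 4 ∧ σ * σ = 1 ∧ σ * ea = ea * σ ∧ σ * eb = eb * σ) →
    ∀ s : Fin 5 → ZMod 2, (s 4 = 0 ∧ (∀ i, s i + s (σ i) = if i = 4 then 0 else 1) ∧
      (∀ i, s (ea i) = s i + if i = 4 then 0 else 1) ∧ (∀ i, s (eb i) = s i + if i = 4 then 0 else 1)) →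
    (σ = ea ∨ σ = eb) ∧ (s = (fun k => if k = 0 ∨ k = 1 then 1 else 0) ∨
      s = fun k => (if k = 0 ∨ k = 1 then 1 else 0) + (if k = 4 then 0 else 1)) := by
  decide +kernel

theorem pure_comm {c : G} {σ : Equiv.Perm (Fin 5)} (h : Act z x c σ 0) (i : Fin 5) :
    c * x i = x (σ i) * c := by
  have := h i
  rw [mul_inv_eq_iff_eq_mul, Pi.zero_apply, zp_zero, one_mul] at this
  exact this

theorem pure_mul (B : Base Q z x) {c d : G} (hc : c * z = z * c) {σ τ : Equiv.Perm (Fin 5)}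
    (h1 : Act z x c σ 0) (h2 : Act z x d τ 0) : Act z x (c * d) (σ * τ) 0 := by
  have h3 := act_mul B.pl hc h1 h2
  intro i
  rw [h3 i]
  simp

theorem J2Pre.clif {E L K : Subgroup G} {p q : G} (P : J2Pre Q z x E L K p q) : Clif z x where
  zz := P.B.pl.sq
  xz := P.B.pts.comm_z P.B.pl
  xx := P.B.pts.sq
  anti := P.B.pts.anti
  prod := P.prod

/-- relations of `d = f² x₄ f⁻¹` -/
theorem J2Rel.d_rel {E L K : Subgroup G} {p q r f : G} (R : J2Rel Q z x E L K p q r f) (h : J2Loc z v E L K) :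
    (f * f * x 4 * f⁻¹) * z = x 4 * (f * f * x 4 * f⁻¹) ∧
    (f * f * x 4 * f⁻¹) * x 4 = z * x 4 * (f * f * x 4 * f⁻¹) ∧
    (f * f * x 4 * f⁻¹) * ((f * f * x 4 * f⁻¹) * (f * f * x 4 * f⁻¹)) = 1 ∧ f * f * x 4 * f⁻¹ ≠ 1 ∧
    f * f * x 4 * f⁻¹ ∈ L := by
  have B := R.P.B
  have hxz := B.pts.comm_z B.pl
  obtain ⟨eL⟩ := h.eL
  have hx4z : x 4 ≠ z := by
    have := B.pts.ne_zp B.pl 1 4
    rwa [zp_one] at this
  have hx41 : x 4 ≠ 1 := by
    have := B.pts.ne_zp B.pl 0 4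
    rwa [zp_zero] at this
  obtain ⟨k1, k2, k3, k4⟩ := a5_d eL (a := ⟨z, h.hzL⟩) (b := ⟨x 4, R.P.x4L⟩) (f := ⟨f, R.fL⟩)
    (Subtype.ext B.pl.sq) (fun h => B.pl.ne_one (congrArg Subtype.val h)) (Subtype.ext (B.pts.sq 4))
    (fun h => hx41 (congrArg Subtype.val h)) (fun h => hx4z (congrArg Subtype.val h).symm)
    (Subtype.ext (hxz 4).symm) (Subtype.ext R.f5) (fun h => R.f1 (congrArg Subtype.val h))
    (Subtype.ext R.zf) (Subtype.ext R.xf)
  refine ⟨congrArg Subtype.val k1, congrArg Subtype.val k2, congrArg Subtype.val k3,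
    fun h => k4 (Subtype.ext h), ?_⟩
  exact L.mul_mem (L.mul_mem (L.mul_mem R.fL R.fL) R.P.x4L) (L.inv_mem R.fL)

set_option maxRecDepth 100000 in
theorem J2Rel.qrel {E L K : Subgroup G} {p q r f : G} (R : J2Rel Q z x E L K p q r f) (h : J2Loc z v E L K) :
    (f * f * x 4 * f⁻¹) * (x 1 * x 2) * (f * f * x 4 * f⁻¹)⁻¹ = p * q * (x 0 * x 1) * x 4 := by
  obtain ⟨d1, d2, d3, -, dL⟩ := R.d_rel h
  generalize hd : f * f * x 4 * f⁻¹ = d at *
  have P := R.P
  have B := P.B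
  have C := P.clif
  have hzz := C.zz
  have hx4 : x 4 * x 4 = 1 := C.xx 4
  have hdK : ∀ k ∈ K, d * k = k * d := fun k hk => (h.comm k hk d dL).symm
  -- `d z d⁻¹ = x₄`, `d x₄ d⁻¹ = z x₄`
  have dz : d * z * d⁻¹ = x 4 := by rw [mul_inv_eq_iff_eq_mul]; exact d1
  have dx : d * x 4 * d⁻¹ = z * x 4 := by rw [mul_inv_eq_iff_eq_mul]; exact d2
  have dzx : d * (z * x 4) * d⁻¹ = z := by
    have e : d * (z * x 4) * d⁻¹ = (d * z * d⁻¹) * (d * x 4 * d⁻¹) := by group
    rw [e, dz, dx, ← mul_assoc, C.xz, mul_assoc, hx4, mul_one]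
  set D := d * (x 1 * x 2) * d⁻¹ with hD
  have qaz : (x 1 * x 2) * z = z * (x 1 * x 2) := by rw [mul_assoc, C.xz, ← mul_assoc, C.xz, mul_assoc]
  have qax : (x 1 * x 2) * x 4 = x 4 * (x 1 * x 2) := by
    rw [mul_assoc, C.anti 2 4 (by decide), C.xz', C.anti' 1 4 (by decide), C.zz']
  have qazx : (x 1 * x 2) * (z * x 4) = (z * x 4) * (x 1 * x 2) := by
    rw [← mul_assoc, qaz, mul_assoc, qax, mul_assoc]
  have hDz : D * z = z * D := by
    have := conj_comm (g := d) qazx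
    rwa [dzx] at this
  have hDx : D * x 4 = x 4 * D := by
    have := conj_comm (g := d) qaz
    rwa [dz] at this
  have hDD : D * D = x 4 := by
    have e : D * D = d * ((x 1 * x 2) * (x 1 * x 2)) * d⁻¹ := by rw [hD]; group
    rw [e]
    have e2 : (x 1 * x 2) * (x 1 * x 2) = z := by
      rw [mul_assoc]; exact C.c5
    rw [e2, dz]
  have pz : p * z = z * p := h.comm p P.pK z h.hzL
  have qz : q * z = z * q := h.comm q P.qK z h.hzL
  have px4 : p * x 4 = x 4 * p := h.comm p P.pK _ P.x4L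
  have qx4 : q * x 4 = x 4 * q := h.comm q P.qK _ P.x4L
  have dp := hdK p P.pK
  have dq := hdK q P.qK
  obtain ⟨σ, -, s, -, hs⟩ := B.act hDz
  obtain ⟨m1, m2⟩ := B.act_comm hs hDx
  have a4 := act_self B.pl B.pts 4
  have a4z : Act z x (z * x 4) 1 (fun j => if j = 4 then 0 else 1) := by
    have := act_zp_mul B.pl B.pts 1 a4
    rwa [zp_one] at this
  have h1 := act_mul B.pl hDz hs hs
  rw [hDD] at h1
  obtain ⟨m3, m4⟩ := act_unique B.pl B.pts h1 a4
  -- conjugation by `A = q p`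
  have aA : Act z x (q * p) ea 0 := pure_mul B qz P.aq P.ap
  have aB : Act z x (p * q) eb 0 := pure_mul B pz P.ap P.aq
  have Az : (q * p) * z = z * (q * p) := Base.mul_comm_z B qz pz
  have Bz : (p * q) * z = z * (p * q) := Base.mul_comm_z B pz qz
  have dA : d * (q * p) = (q * p) * d := hdK _ (K.mul_mem P.qK P.pK)
  have dB : d * (p * q) = (p * q) * d := hdK _ (K.mul_mem P.pK P.qK)
  have hA : (q * p) * D = x 4 * D * (q * p) := by
    have e1 : (q * p) * (x 1 * x 2) = z * (x 1 * x 2) * (q * p) := by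
      rw [← mul_assoc, pure_comm aA 1, mul_assoc, pure_comm aA 2, show ea 1 = 2 by decide,
        show ea 2 = 1 by decide, ← mul_assoc, C.anti 2 1 (by decide)]
    have e2 : (q * p) * D = d * ((q * p) * (x 1 * x 2)) * d⁻¹ := by
      rw [hD]
      calc (q * p) * (d * (x 1 * x 2) * d⁻¹) = ((q * p) * d) * (x 1 * x 2) * d⁻¹ := by group
        _ = _ := by rw [← dA]; group
    rw [e2, e1, ← dz, hD]
    calc d * (z * (x 1 * x 2) * (q * p)) * d⁻¹ = d * z * (x 1 * x 2) * ((q * p) * d⁻¹) := by group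
      _ = d * z * (x 1 * x 2) * (d⁻¹ * (d * (q * p)) * d⁻¹) := by group
      _ = d * z * (x 1 * x 2) * (d⁻¹ * (q * p)) := by rw [dA]; group
      _ = _ := by group
  have hB : (p * q) * D = (z * x 4) * D * (p * q) := by
    have e1 : (p * q) * (x 1 * x 2) = x 4 * (x 1 * x 2) * (p * q) := by
      rw [← mul_assoc, pure_comm aB 1, mul_assoc, pure_comm aB 2, show eb 1 = 3 by decide,
        show eb 2 = 0 by decide, ← mul_assoc, C.c1]
    have e2 : (p * q) * D = d * ((p * q) * (x 1 * x 2)) * d⁻¹ := by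
      rw [hD]
      calc (p * q) * (d * (x 1 * x 2) * d⁻¹) = ((p * q) * d) * (x 1 * x 2) * d⁻¹ := by group
        _ = _ := by rw [← dB]; group
    rw [e2, e1, ← dx, hD]
    calc d * (x 4 * (x 1 * x 2) * (p * q)) * d⁻¹ = d * x 4 * (x 1 * x 2) * ((p * q) * d⁻¹) := by group
      _ = d * x 4 * (x 1 * x 2) * (d⁻¹ * (d * (p * q)) * d⁻¹) := by group
      _ = d * x 4 * (x 1 * x 2) * (d⁻¹ * (p * q)) := by rw [dB]; group
      _ = _ := by group
  have h2 := act_mul B.pl Az aA hs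
  rw [hA] at h2
  have x4Dz : x 4 * D * z = z * (x 4 * D) := Base.mul_comm_z B (C.xz 4) hDz
  obtain ⟨m5, m6⟩ := act_unique B.pl B.pts h2 (act_mul B.pl x4Dz (act_mul B.pl (C.xz 4) a4 hs) aA)
  have h3 := act_mul B.pl Bz aB hs
  rw [hB] at h3
  have zx4z : z * x 4 * z = z * (z * x 4) := by rw [mul_assoc, C.xz]
  have zx4Dz : z * x 4 * D * z = z * (z * x 4 * D) := Base.mul_comm_z B zx4z hDz
  obtain ⟨m7, m8⟩ := act_unique B.pl B.pts h3 (act_mul B.pl zx4Dz (act_mul B.pl zx4z a4z hs) aB)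
  rw [one_mul] at m5 m7
  have hσ4 : ∀ i, σ i = 4 ↔ i = 4 := fun i =>
    ⟨fun hi => σ.injective (hi.trans m1.symm), fun hi => by rw [hi, m1]⟩
  have hea4 : ∀ i, ea i = 4 ↔ i = 4 := by decide
  have heb4 : ∀ i, eb i = 4 ↔ i = 4 := by decide
  obtain ⟨c1, c2⟩ := q_sgn σ ⟨m1, m3, m5.symm, m7.symm⟩ s ⟨m2, fun i => congrFun m4 i, fun i => by
      have := congrFun m6 i
      simp only [Pi.zero_apply, add_zero, zero_add, hσ4, hea4] at this
      rw [this, add_assoc, CharTwo.add_self_eq_zero, add_zero], fun i => by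
      have := congrFun m8 i
      simp only [Pi.zero_apply, add_zero, zero_add, hσ4, heb4] at this
      rw [this, add_assoc, CharTwo.add_self_eq_zero, add_zero]⟩
  have aN := act_pair B.pl B.pts (show (0 : Fin 5) ≠ 1 by decide)
  have Nz : x 0 * x 1 * z = z * (x 0 * x 1) := by rw [mul_assoc, C.xz, ← mul_assoc, C.xz, mul_assoc]
  -- the form of `D`
  have key : ∀ H : G, H * z = z * H → H * x 4 = x 4 * H → Act z x H σ 0 → ∃ w, w * w = 1 ∧ w * p = p * w ∧
      w * q = q * w ∧ (∀ i j : Fin 5, i ≠ 4 → j ≠ 4 → w * (x i * x j) = (x i * x j) * w) ∧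
      D = H * (x 0 * x 1) * w := by
    intro H hHz hHx hH
    have e1 := act_mul B.pl hHz hH aN
    have hHNz := Base.mul_comm_z B hHz Nz
    rcases c2 with rfl | rfl
    · obtain ⟨a, ha⟩ := B.ext hDz hHNz hs (by
        intro i
        rw [e1 i]
        simp only [Pi.zero_apply, add_zero, mul_one])
      refine ⟨zp z a, zp_self B.pl.toXS a, (zp_comm pz a).symm, (zp_comm qz a).symm, ?_, ?_⟩
      · intro i j _ _
        exact (zp_comm (B.pl.central _ (Q.mul_mem (B.pts.mem i) (B.pts.mem j))) a).symm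
      · rw [ha, zp_comm hHNz]
    · have e2 := act_mul B.pl hHNz e1 a4
      have hHNxz := Base.mul_comm_z B hHNz (C.xz 4)
      obtain ⟨a, ha⟩ := B.ext hDz hHNxz hs (by
        intro i
        rw [e2 i]
        simp only [Pi.zero_apply, add_zero, mul_one, Equiv.Perm.coe_one, id]
        rw [add_comm]
        rfl)
      have hzx : x 4 * zp z a = zp z a * x 4 := zp_comm (C.xz 4) a
      refine ⟨zp z a * x 4, ?_, ?_, ?_, ?_, ?_⟩
      · rw [mul_assoc, ← mul_assoc (x 4), hzx, mul_assoc, hx4, mul_one, zp_self B.pl.toXS]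
      · rw [mul_assoc, ← px4, ← mul_assoc, ← zp_comm pz, mul_assoc]
      · rw [mul_assoc, ← qx4, ← mul_assoc, ← zp_comm qz, mul_assoc]
      · intro i j hi hj
        have e3 := C.c6 hi hj
        have e4 := zp_comm (B.pl.central _ (Q.mul_mem (B.pts.mem i) (B.pts.mem j))) a
        rw [mul_assoc, ← e3, ← mul_assoc (x i), ← mul_assoc (zp z a), ← e4, mul_assoc]
      · rw [ha, ← zp_comm hHNxz]
        rw [mul_assoc, hzx]
  have hwwN : ∀ {H w : G}, w * w = 1 → w * H = H * w → w * (x 0 * x 1) = (x 0 * x 1) * w →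
      (H * (x 0 * x 1) * w) * (H * (x 0 * x 1) * w) = (H * (x 0 * x 1)) * (H * (x 0 * x 1)) := by
    intro H w hw1 hw2 hw3
    calc (H * (x 0 * x 1) * w) * (H * (x 0 * x 1) * w) = H * (x 0 * x 1) * (w * H) * (x 0 * x 1) * w := by group
      _ = (H * (x 0 * x 1)) * (H * (w * (x 0 * x 1))) * w := by rw [hw2]; group
      _ = (H * (x 0 * x 1)) * (H * (x 0 * x 1)) * (w * w) := by rw [hw3]; group
      _ = _ := by rw [hw1, mul_one]
  have pq2 := P.pq
  have qp2 : (q * p) * (q * p) = 1 := by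
    have e : (q * p) * (q * p) = p⁻¹ * ((p * q) * (p * q)) * p := by group
    rw [e, pq2]; group
  rcases c1 with rfl | rfl
  · exfalso
    obtain ⟨w, hw1, hw2, hw3, hw4, hw5⟩ := key (q * p) Az (by rw [mul_assoc, px4, ← mul_assoc, qx4, mul_assoc]) aA
    have e1 : w * (q * p) = (q * p) * w := by rw [← mul_assoc, hw3, mul_assoc, hw2, mul_assoc]
    have e2 : D * D = z * x 4 := by
      rw [hw5, hwwN hw1 e1 (hw4 0 1 (by decide) (by decide))]
      have e3 : (q * p) * (x 0 * x 1) = x 3 * x 2 * (q * p) := by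
        rw [← mul_assoc, pure_comm aA 0, mul_assoc, pure_comm aA 1, show ea 0 = 3 by decide,
          show ea 1 = 2 by decide, ← mul_assoc]
      calc (q * p) * (x 0 * x 1) * ((q * p) * (x 0 * x 1))
          = x 3 * x 2 * (q * p) * ((q * p) * (x 0 * x 1)) := by rw [e3]
        _ = x 3 * x 2 * ((q * p) * (q * p)) * (x 0 * x 1) := by group
        _ = x 3 * (x 2 * (x 0 * x 1)) := by rw [qp2]; group
        _ = z * x 4 := C.c2
    rw [hDD] at e2
    apply B.pl.ne_one
    exact (mul_eq_right.mp e2.symm)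
  · obtain ⟨w, hw1, hw2, hw3, hw4, hw5⟩ := key (p * q) Bz (by rw [mul_assoc, qx4, ← mul_assoc, px4, mul_assoc]) aB
    -- product relation
    have e0 : D * (p * D * p⁻¹) * (p * p * D * (p * p)⁻¹) = 1 := by
      have f1 : p * D * p⁻¹ = d * (x 2 * x 0) * d⁻¹ := by
        have g1 : p * (x 1 * x 2) = x 2 * x 0 * p := by
          rw [← mul_assoc, pure_comm P.ap 1, mul_assoc, pure_comm P.ap 2, show v2 1 = 2 by decide,
            show v2 2 = 0 by decide, ← mul_assoc]
        rw [hD]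
        calc p * (d * (x 1 * x 2) * d⁻¹) * p⁻¹ = (p * d) * (x 1 * x 2) * d⁻¹ * p⁻¹ := by group
          _ = d * (p * (x 1 * x 2)) * d⁻¹ * p⁻¹ := by rw [← dp]; group
          _ = d * (x 2 * x 0) * (d⁻¹ * (d * p) * d⁻¹ * p⁻¹) := by rw [g1]; group
          _ = _ := by rw [dp]; group
      have f2 : p * p * D * (p * p)⁻¹ = d * (x 0 * x 1) * d⁻¹ := by
        have g1 : p * (x 2 * x 0) = x 0 * x 1 * p := by
          rw [← mul_assoc, pure_comm P.ap 2, mul_assoc, pure_comm P.ap 0, show v2 2 = 0 by decide,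
            show v2 0 = 1 by decide, ← mul_assoc]
        calc p * p * D * (p * p)⁻¹ = p * (p * D * p⁻¹) * p⁻¹ := by group
          _ = p * (d * (x 2 * x 0) * d⁻¹) * p⁻¹ := by rw [f1]
          _ = (p * d) * (x 2 * x 0) * d⁻¹ * p⁻¹ := by group
          _ = d * (p * (x 2 * x 0)) * d⁻¹ * p⁻¹ := by rw [← dp]; group
          _ = d * (x 0 * x 1) * (d⁻¹ * (d * p) * d⁻¹ * p⁻¹) := by rw [g1]; group
          _ = _ := by rw [dp]; group
      rw [f1, f2, hD]
      calc d * (x 1 * x 2) * d⁻¹ * (d * (x 2 * x 0) * d⁻¹) * (d * (x 0 * x 1) * d⁻¹)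
          = d * (x 1 * (x 2 * x 2) * (x 0 * x 0) * x 1) * d⁻¹ := by group
        _ = 1 := by rw [C.xx 2, C.xx 0, mul_one, mul_one, C.xx 1]; group
    have aC : Act z x (p * (p * q) * p⁻¹) (v2 * eb * v2⁻¹) 0 := by
      have i1 := act_inv B.pl pz P.ap
      have i2 : Act z x p⁻¹ v2⁻¹ 0 := by
        intro i; rw [i1 i]; simp
      exact pure_mul B (Base.mul_comm_z B pz Bz) (pure_mul B pz P.ap aB) i2
    have Cz : p * (p * q) * p⁻¹ * z = z * (p * (p * q) * p⁻¹) :=
      Base.mul_comm_z B (Base.mul_comm_z B pz Bz) (Base.inv_comm_z B pz)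
    have aA' : Act z x (p * (p * (p * q) * p⁻¹) * p⁻¹) (v2 * (v2 * eb * v2⁻¹) * v2⁻¹) 0 := by
      have i1 := act_inv B.pl pz P.ap
      have i2 : Act z x p⁻¹ v2⁻¹ 0 := by
        intro i; rw [i1 i]; simp
      exact pure_mul B (Base.mul_comm_z B pz Cz) (pure_mul B pz P.ap aC) i2
    have A'z : p * (p * (p * q) * p⁻¹) * p⁻¹ * z = z * (p * (p * (p * q) * p⁻¹) * p⁻¹) :=
      Base.mul_comm_z B (Base.mul_comm_z B pz Cz) (Base.inv_comm_z B pz)
    have hBCA : (p * q) * ((p * (p * q) * p⁻¹) * (p * (p * (p * q) * p⁻¹) * p⁻¹)) = 1 := by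
      apply P.KQ
      · have k1 : p * (p * q) * p⁻¹ ∈ K := K.mul_mem (K.mul_mem P.pK (K.mul_mem P.pK P.qK)) (K.inv_mem P.pK)
        exact K.mul_mem (K.mul_mem P.pK P.qK) (K.mul_mem k1 (K.mul_mem (K.mul_mem P.pK k1) (K.inv_mem P.pK)))
      · have k2 := pure_mul B Bz aB (pure_mul B Cz aC aA')
        rw [show eb * ((v2 * eb * v2⁻¹) * (v2 * (v2 * eb * v2⁻¹) * v2⁻¹)) = 1 by decide] at k2
        exact B.mem_of_act_one (Base.mul_comm_z B Bz (Base.mul_comm_z B Cz A'z)) k2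
    generalize hCh : p * (p * q) * p⁻¹ = Ch at *
    generalize hAh : p * Ch * p⁻¹ = Ah at *
    have wC : w * Ch = Ch * w := by
      rw [← hCh]
      have wpi : w * p⁻¹ = p⁻¹ * w := by
        rw [eq_inv_mul_iff_mul_eq, ← mul_assoc, ← hw2, mul_inv_cancel_right]
      calc w * (p * (p * q) * p⁻¹) = (w * p) * p * q * p⁻¹ := by group
        _ = (p * w) * p * q * p⁻¹ := by rw [hw2]
        _ = p * (w * p) * q * p⁻¹ := by group
        _ = p * (p * w) * q * p⁻¹ := by rw [hw2]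
        _ = p * p * (w * q) * p⁻¹ := by group
        _ = p * p * (q * w) * p⁻¹ := by rw [hw3]
        _ = p * p * q * (w * p⁻¹) := by group
        _ = p * p * q * (p⁻¹ * w) := by rw [wpi]
        _ = _ := by group
    have wpi : w * p⁻¹ = p⁻¹ * w := by
      rw [eq_inv_mul_iff_mul_eq, ← mul_assoc, ← hw2, mul_inv_cancel_right]
    have wA : w * Ah = Ah * w := by
      rw [← hAh]
      calc w * (p * Ch * p⁻¹) = (w * p) * Ch * p⁻¹ := by group
        _ = p * (w * Ch) * p⁻¹ := by rw [hw2]; group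
        _ = p * Ch * (w * p⁻¹) := by rw [wC]; group
        _ = _ := by rw [wpi]; group
    have g1 : p * D * p⁻¹ = Ch * (x 1 * x 2) * w := by
      rw [hw5, ← hCh]
      have k1 : p * (x 0 * x 1) = x 1 * x 2 * p := by
        rw [← mul_assoc, pure_comm P.ap 0, mul_assoc, pure_comm P.ap 1, show v2 0 = 1 by decide,
          show v2 1 = 2 by decide, ← mul_assoc]
      calc p * (p * q * (x 0 * x 1) * w) * p⁻¹ = p * (p * q) * p⁻¹ * (p * (x 0 * x 1)) * (w * p⁻¹) := by group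
        _ = _ := by rw [k1, wpi]; group
    have g2 : p * p * D * (p * p)⁻¹ = Ah * (x 2 * x 0) * w := by
      have k1 : p * (x 1 * x 2) = x 2 * x 0 * p := by
        rw [← mul_assoc, pure_comm P.ap 1, mul_assoc, pure_comm P.ap 2, show v2 1 = 2 by decide,
          show v2 2 = 0 by decide, ← mul_assoc]
      calc p * p * D * (p * p)⁻¹ = p * (p * D * p⁻¹) * p⁻¹ := by group
        _ = p * (Ch * (x 1 * x 2) * w) * p⁻¹ := by rw [g1]
        _ = (p * Ch * p⁻¹) * (p * (x 1 * x 2)) * (w * p⁻¹) := by group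
        _ = _ := by rw [hAh, k1, wpi]; group
    rw [g1, g2, hw5] at e0
    -- collect
    have s1 : (x 0 * x 1) * Ch = Ch * (x 1 * x 0) := by
      have k0 := pure_comm aC 0
      have k1 := pure_comm aC 1
      rw [show (v2 * eb * v2⁻¹) 0 = 1 by decide] at k0
      rw [show (v2 * eb * v2⁻¹) 1 = 0 by decide] at k1
      symm
      calc Ch * (x 1 * x 0) = (Ch * x 1) * x 0 := by group
        _ = x 0 * (Ch * x 0) := by rw [k1]; group
        _ = _ := by rw [k0]; group
    have s2 : (x 1 * x 0) * (x 1 * x 2) * Ah = Ah * ((x 2 * x 3) * (x 2 * x 1)) := by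
      have k1 := pure_comm aA' 1
      have k2 := pure_comm aA' 2
      have k3 := pure_comm aA' 3
      rw [show (v2 * (v2 * eb * v2⁻¹) * v2⁻¹) 1 = 2 by decide] at k1
      rw [show (v2 * (v2 * eb * v2⁻¹) * v2⁻¹) 2 = 1 by decide] at k2
      rw [show (v2 * (v2 * eb * v2⁻¹) * v2⁻¹) 3 = 0 by decide] at k3
      symm
      calc Ah * ((x 2 * x 3) * (x 2 * x 1)) = (Ah * x 2) * x 3 * x 2 * x 1 := by group
        _ = x 1 * (Ah * x 3) * x 2 * x 1 := by rw [k2]; group
        _ = x 1 * x 0 * (Ah * x 2) * x 1 := by rw [k3]; group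
        _ = x 1 * x 0 * x 1 * (Ah * x 1) := by rw [k2]; group
        _ = _ := by rw [k1]; group
    have hw01 := hw4 0 1 (by decide) (by decide)
    have hw12 := hw4 1 2 (by decide) (by decide)
    have hw20 := hw4 2 0 (by decide) (by decide)
    have e3 : x 4 * w = 1 := by
      rw [← e0]
      symm
      calc p * q * (x 0 * x 1) * w * (Ch * (x 1 * x 2) * w) * (Ah * (x 2 * x 0) * w)
          = p * q * (x 0 * x 1) * (w * Ch) * (x 1 * x 2) * (w * Ah) * (x 2 * x 0) * w := by group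
        _ = p * q * ((x 0 * x 1) * Ch) * (w * (x 1 * x 2)) * Ah * (w * (x 2 * x 0)) * w := by rw [wC, wA]; group
        _ = p * q * Ch * (x 1 * x 0) * (x 1 * x 2) * (w * Ah) * (x 2 * x 0) * (w * w) := by
            rw [s1, hw12, hw20]; group
        _ = p * q * Ch * ((x 1 * x 0) * (x 1 * x 2) * Ah) * (w * (x 2 * x 0)) := by rw [wA, hw1]; group
        _ = p * q * (Ch * Ah) * (x 2 * (x 3 * (x 2 * (x 1 * (x 2 * x 0))))) * w := by rw [s2, hw20]; group
        _ = x 4 * w := by rw [hBCA, C.c4, one_mul]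
    have e4 : w = x 4 := by
      have := eq_inv_of_mul_eq_one_right e3
      rw [this]; exact inv_eq_of_mul_eq_one_left hx4
    rw [hw5, e4]

end Cfsg.Agent.LE
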