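import Cfsg.Agent.LE.J2F

/-!
The generators of a group of `J₂` type, second part (owner: helper58).
-/
set_option autoImplicit false

namespace Cfsg.Agent.LE

open Subgroup Cfsg.Agent.H90

variable {G : Type*} [Group G] [Finite G] {Q : Subgroup G} {z v : G} {x : Fin 5 → G}

set_option synthInstance.maxHeartbeats 200000 in
set_option synthInstance.maxSize 1000 in
set_option maxRecDepth 100000 in
theorem sgn_r : ∀ s : Fin 5 → ZMod 2, ((∀ i, s i + (s (v4 i) + s (v4 (v4 i))) = 0) ∧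
    (∀ i, s i + s (v2 (v4 i)) = 0) ∧ (∀ i, s i + s (v3 (v4 i)) = 0)) →
    s = 0 ∨ s = fun k => if k = 1 ∨ k = 4 then 1 else 0 := by
  decide +kernel

theorem sgn_r2 : ∀ i : Fin 5, (if i = 4 then (0 : ZMod 2) else 1) +
    ((if i = 1 ∨ i = 4 then 1 else 0) + (if v4 i = 4 then 0 else 1)) = 0 := by decide

structure J2Rel (Q : Subgroup G) (z : G) (x : Fin 5 → G) (E L K : Subgroup G) (p q r f : G) : Prop where
  P : J2Pre Q z x E L K p q
  rz : r * z = z * r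
  r3 : r * (r * r) = 1
  pr : (p * r) * (p * r) = 1
  qr : (q * r) * (q * r) = 1
  ar : Act z x r v4 0
  fL : f ∈ L
  f5 : f * (f * (f * (f * f))) = 1
  f1 : f ≠ 1
  zf : (z * f) * (z * f) = 1
  fr : f * r = r * f
  xf : (x 4 * f) * ((x 4 * f) * (x 4 * f)) = 1

theorem exists_rel {E L K : Subgroup G} {p q : G} (P : J2Pre Q z x E L K p q) (h : J2Loc z v E L K) :
    ∃ r f, J2Rel Q z x E L K p q r f := by
  have B := P.B
  have hxz := B.pts.comm_z B.pl
  have x44 : x 4 * x 4 = 1 := B.pts.sq 4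
  obtain ⟨eL⟩ := h.eL
  have hx4z : x 4 ≠ z := by
    have := B.pts.ne_zp B.pl 1 4
    rwa [zp_one] at this
  have hx41 : x 4 ≠ 1 := by
    have := B.pts.ne_zp B.pl 0 4
    rwa [zp_zero] at this
  obtain ⟨⟨f, hf⟩, m1, m2, m3, m4⟩ := a5_exists_f eL (a := ⟨z, h.hzL⟩) (b := ⟨x 4, P.x4L⟩)
    (Subtype.ext B.pl.sq) (fun h => B.pl.ne_one (congrArg Subtype.val h)) (Subtype.ext x44)
    (fun h => hx41 (congrArg Subtype.val h)) (fun h => hx4z (congrArg Subtype.val h).symm)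
    (Subtype.ext (hxz 4).symm)
  have f5 : f * (f * (f * (f * f))) = 1 := congrArg Subtype.val m1
  have f1 : f ≠ 1 := fun h => m2 (Subtype.ext h)
  have zf : (z * f) * (z * f) = 1 := congrArg Subtype.val m3
  have xf : (x 4 * f) * ((x 4 * f) * (x 4 * f)) = 1 := congrArg Subtype.val m4
  obtain ⟨eD⟩ := h.cent_zf hf f5 f1 zf P.pK P.qK P.p3 P.p1 P.q3 P.q1 P.pq P.pq1
  obtain ⟨ρ, hρ1, hρ2, hρ3⟩ := exists_hom_alt B.pl B.pts B.cardQ B.cardC
  let D := centralizer ({f} : Set G) ⊓ centralizer ({z} : Set G)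
  have hDz : ∀ d : G, d ∈ D → d * z = z * d := fun d hd => mem_cent.mp hd.2
  have hDf : ∀ d : G, d ∈ D → d * f = f * d := fun d hd => mem_cent.mp hd.1
  let φ : D →* Equiv.Perm (Fin 5) := ρ.comp (Subgroup.inclusion (inf_le_right : D ≤ centralizer ({z} : Set G)))
  have hsimp : IsSimpleGroup D := by
    have := alternatingGroup.isSimpleGroup (α := Fin 5) (by simp)
    exact eD.isSimpleGroup
  have hcardD : Nat.card D = 60 := by rw [Nat.card_congr eD.toEquiv, a5_card]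
  have hker : φ.ker = ⊥ := by
    rcases (inferInstance : φ.ker.Normal).eq_bot_or_eq_top with h1 | h1
    · exact h1
    · exfalso
      have h2 : D ≤ Q := by
        intro d hd
        have h3 : (⟨d, hd⟩ : D) ∈ φ.ker := by rw [h1]; trivial
        exact (hρ2 ⟨d, hd.2⟩).mp h3
      have h3 := Subgroup.card_dvd_of_le h2
      rw [hcardD, B.cardQ] at h3
      omega
  have hinj : Function.Injective φ := (MonoidHom.ker_eq_bot_iff φ).mp hker
  have hrange : φ.range = alternatingGroup (Fin 5) := by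
    apply Subgroup.eq_of_le_of_card_ge
    · rintro _ ⟨d, rfl⟩
      rw [← hρ3]
      exact ⟨_, rfl⟩
    · rw [a5_card, ← hcardD]
      exact le_of_eq (Nat.card_congr (MonoidHom.ofInjective hinj).toEquiv)
  obtain ⟨⟨r, hrD⟩, hr⟩ : v4 ∈ φ.range := by rw [hrange]; exact v4_mem
  obtain ⟨s, hs⟩ := hρ1 ⟨r, hrD.2⟩
  have hr' : ρ ⟨r, hrD.2⟩ = v4 := hr
  rw [hr'] at hs
  have rz := hDz r hrD
  have rf := hDf r hrD
  have hKD : ∀ k, k ∈ K → k ∈ D := fun k hk => ⟨mem_cent.mpr (h.comm k hk f hf), mem_cent.mpr (h.comm k hk z h.hzL)⟩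
  have pz := hDz p (hKD p P.pK)
  have qz := hDz q (hKD q P.qK)
  have hDone : ∀ d : G, d ∈ D → (∃ t, Act z x d 1 t) → d = 1 := by
    rintro d hd ⟨t, ht⟩
    have h1 : d ∈ Q := B.mem_of_act_one (hDz d hd) ht
    have h2 : φ ⟨d, hd⟩ = 1 := (hρ2 ⟨d, hd.2⟩).mpr h1
    rw [← map_one φ] at h2
    exact congrArg Subtype.val (hinj h2)
  have r3 : r * (r * r) = 1 := by
    refine hDone _ (D.mul_mem hrD (D.mul_mem hrD hrD)) ?_
    have := act_mul B.pl rz hs (act_mul B.pl rz hs hs)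
    rw [show v4 * (v4 * v4) = 1 by decide] at this
    exact ⟨_, this⟩
  have apr := act_mul B.pl pz P.ap hs
  have aqr := act_mul B.pl qz P.aq hs
  have pr : (p * r) * (p * r) = 1 := by
    have hm := D.mul_mem (hKD p P.pK) hrD
    refine hDone _ (D.mul_mem hm hm) ?_
    have := act_mul B.pl (hDz _ hm) apr apr
    rw [show v2 * v4 * (v2 * v4) = 1 by decide] at this
    exact ⟨_, this⟩
  have qr : (q * r) * (q * r) = 1 := by
    have hm := D.mul_mem (hKD q P.qK) hrD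
    refine hDone _ (D.mul_mem hm hm) ?_
    have := act_mul B.pl (hDz _ hm) aqr aqr
    rw [show v3 * v4 * (v3 * v4) = 1 by decide] at this
    exact ⟨_, this⟩
  obtain ⟨-, k1⟩ := B.act_three rz hs r3
  obtain ⟨-, k2⟩ := B.act_two (Base.mul_comm_z B pz rz) apr pr
  obtain ⟨-, k3⟩ := B.act_two (Base.mul_comm_z B qz rz) aqr qr
  rcases sgn_r s ⟨k1, fun i => by simpa using k2 i, fun i => by simpa using k3 i⟩ with rfl | rfl
  · exact ⟨r, f, P, rz, r3, pr, qr, hs, hf, f5, f1, zf, rf.symm, xf⟩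
  · have hp4 : p * x 4 = x 4 * p := h.comm p P.pK _ P.x4L
    have hq4 : q * x 4 = x 4 * q := h.comm q P.qK _ P.x4L
    have x4i : (x 4)⁻¹ = x 4 := B.pts.inv B.pl 4
    refine ⟨x 4 * r * (x 4)⁻¹, x 4 * f * (x 4)⁻¹, P, ?_, ?_, ?_, ?_, ?_, ?_, ?_, ?_, ?_, ?_, ?_⟩
    · exact Base.comm_conj (hxz 4) rz
    · calc x 4 * r * (x 4)⁻¹ * (x 4 * r * (x 4)⁻¹ * (x 4 * r * (x 4)⁻¹)) = x 4 * (r * (r * r)) * (x 4)⁻¹ := by group
        _ = 1 := by rw [r3]; group
    · calc p * (x 4 * r * (x 4)⁻¹) * (p * (x 4 * r * (x 4)⁻¹))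
          = (p * x 4) * r * (x 4)⁻¹ * (p * x 4) * r * (x 4)⁻¹ := by group
        _ = x 4 * ((p * r) * (p * r)) * (x 4)⁻¹ := by rw [hp4]; group
        _ = 1 := by rw [pr]; group
    · calc q * (x 4 * r * (x 4)⁻¹) * (q * (x 4 * r * (x 4)⁻¹))
          = (q * x 4) * r * (x 4)⁻¹ * (q * x 4) * r * (x 4)⁻¹ := by group
        _ = x 4 * ((q * r) * (q * r)) * (x 4)⁻¹ := by rw [hq4]; group
        _ = 1 := by rw [qr]; group
    · rw [x4i]
      have a4 := act_self B.pl B.pts 4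
      have h1 := act_mul B.pl (Base.mul_comm_z B (hxz 4) rz) (act_mul B.pl (hxz 4) a4 hs) a4
      rw [one_mul, mul_one] at h1
      intro i
      rw [h1 i]
      congr 2
      exact sgn_r2 i
    · exact L.mul_mem (L.mul_mem P.x4L hf) (L.inv_mem P.x4L)
    · calc x 4 * f * (x 4)⁻¹ * (x 4 * f * (x 4)⁻¹ * (x 4 * f * (x 4)⁻¹ * (x 4 * f * (x 4)⁻¹ * (x 4 * f * (x 4)⁻¹))))
          = x 4 * (f * (f * (f * (f * f)))) * (x 4)⁻¹ := by group
        _ = 1 := by rw [f5]; group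
    · exact conj_ne_one f1
    · calc z * (x 4 * f * (x 4)⁻¹) * (z * (x 4 * f * (x 4)⁻¹))
          = (z * x 4) * f * (x 4)⁻¹ * (z * x 4) * f * (x 4)⁻¹ := by group
        _ = x 4 * ((z * f) * (z * f)) * (x 4)⁻¹ := by rw [← hxz 4]; group
        _ = 1 := by rw [zf]; group
    · exact (conj_comm rf).symm
    · calc x 4 * (x 4 * f * (x 4)⁻¹) * (x 4 * (x 4 * f * (x 4)⁻¹) * (x 4 * (x 4 * f * (x 4)⁻¹)))
          = x 4 * ((x 4 * f) * ((x 4 * f) * (x 4 * f))) * (x 4)⁻¹ := by group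
        _ = 1 := by rw [xf]; group

end Cfsg.Agent.LE
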