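import Cfsg.Agent.LE.J2Q

/-!
Generation (owner: helper58).
-/
set_option autoImplicit false

namespace Cfsg.Agent.LE

open Subgroup Cfsg.Agent.H90

set_option synthInstance.maxHeartbeats 200000 in
set_option synthInstance.maxSize 1000 in
set_option maxRecDepth 100000 in
theorem a5_form : ∀ σ : Equiv.Perm (Fin 5), Equiv.Perm.sign σ = 1 → ∃ a b c d e : Fin 3,
    σ = v2 ^ (a : ℕ) * v3 ^ (b : ℕ) * v4 ^ (c : ℕ) * v2 ^ (d : ℕ) * v3 ^ (e : ℕ) := by
  decide +kernel

section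

variable {G : Type*} [Group G] [Finite G] {Q : Subgroup G} {z : G}

theorem pl_exists_conj (h : PL Q z) {a : G} (ha : a * a = 1) :
    ∃ g, (g * a * g⁻¹) * z = z * (g * a * g⁻¹) := by
  have : Fact (Nat.Prime 2) := ⟨by norm_num⟩
  obtain ⟨S, hS⟩ := h.isPGroup.exists_le_sylow
  have hSz : (S : Subgroup G) ≤ centralizer ({z} : Set G) := by
    have : Nontrivial S := by
      refine ⟨⟨1, ⟨z, hS h.mem⟩, ?_⟩⟩
      intro h2
      exact h.ne_one (congrArg Subtype.val h2).symm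
    have hc := S.isPGroup'.center_nontrivial
    obtain ⟨c, hc1⟩ := exists_ne (1 : Subgroup.center S)
    have hcomm : ∀ s ∈ S, (c : S) * (s : G) = s * (c : S) := by
      intro s hs
      have := Subgroup.mem_center_iff.mp c.2 ⟨s, hs⟩
      exact (congrArg Subtype.val this).symm
    have h1 := h.cent ((c : S) : G) (fun q hq => hcomm q (hS hq))
    have hcz : ((c : S) : G) = z := by
      rcases h1 with h1 | h1
      · exfalso
        apply hc1
        apply Subtype.ext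
        exact Subtype.ext h1
      · exact h1
    intro s hs
    rw [mem_cent, ← hcz]
    exact (hcomm s hs).symm
  obtain ⟨k, _, hk⟩ := (Nat.dvd_prime_pow Nat.prime_two (m := 1)).mp
    (show orderOf a ∣ 2 ^ 1 from orderOf_dvd_of_pow_eq_one (by rw [pow_one, pow_two]; exact ha))
  obtain ⟨g, hg⟩ := exists_conj_mem_sylow (p := 2) S hk
  refine ⟨g⁻¹, ?_⟩
  have := hSz hg
  rwa [mem_cent, show g⁻¹ * a * g = g⁻¹ * a * g⁻¹⁻¹ by group] at this

theorem pl_subgroupOf (h : PL Q z) {M : Subgroup G} (hQM : Q ≤ M) :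
    PL (Q.subgroupOf M) (⟨z, hQM h.mem⟩ : M) where
  mem := h.mem
  ne_one := fun h1 => h.ne_one (congrArg Subtype.val h1)
  sq := Subtype.ext h.sq
  central := fun q hq => Subtype.ext (h.central q hq)
  comm := fun a ha b hb => (h.comm a ha b hb).imp (fun h1 => Subtype.ext h1) (fun h1 => Subtype.ext h1)
  nondeg := fun a ha hab => (h.nondeg a ha (fun y hy => congrArg Subtype.val (hab ⟨y, hQM hy⟩ hy))).imp
    (fun h1 => Subtype.ext h1) (fun h1 => Subtype.ext h1)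
  cent := fun g hg => (h.cent g (fun q hq => congrArg Subtype.val (hg ⟨q, hQM hq⟩ hq))).imp
    (fun h1 => Subtype.ext h1) (fun h1 => Subtype.ext h1)
  norm := fun g hg q hq => h.norm g (congrArg Subtype.val hg) q hq

theorem exists_conj_in (h : PL Q z) {M : Subgroup G} (hQM : Q ≤ M) {a : G} (haM : a ∈ M) (ha : a * a = 1) :
    ∃ g ∈ M, (g * a * g⁻¹) * z = z * (g * a * g⁻¹) := by
  obtain ⟨g, hg⟩ := pl_exists_conj (pl_subgroupOf h hQM) (a := (⟨a, haM⟩ : M)) (Subtype.ext ha)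
  exact ⟨g, g.2, congrArg Subtype.val hg⟩

/-- two nonconjugate involutions commute with a common involution in `⟨a b⟩` -/
theorem exists_common {a b : G} (ha : a * a = 1) (hb : b * b = 1) (hab : ¬ IsConj a b) :
    ∃ i : G, i * i = 1 ∧ i ≠ 1 ∧ a * i = i * a ∧ b * i = i * b := by
  have hev : Even (orderOf (a * b)) := by
    by_contra hodd
    rw [Nat.not_even_iff_odd] at hodd
    obtain ⟨m, hm⟩ := hodd
    apply hab
    rw [isConj_iff]
    have hai : a⁻¹ = a := inv_eq_of_mul_eq_one_left ha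
    have hbi : b⁻¹ = b := inv_eq_of_mul_eq_one_left hb
    refine ⟨(a * b) ^ m, ?_⟩
    have h1 : a * (a * b) * a⁻¹ = (a * b)⁻¹ := by
      rw [mul_inv_rev, hai, hbi, ← mul_assoc, ha, one_mul]
    have h2 : a * (a * b) ^ m * a⁻¹ = ((a * b) ^ m)⁻¹ := by
      rw [← conj_pow, h1, inv_pow]
    have h3 : a * ((a * b) ^ m)⁻¹ = (a * b) ^ m * a := by
      have h4 : a * ((a * b) ^ m)⁻¹ * a⁻¹ = (a * b) ^ m := by
        rw [← conj_inv, h2, inv_inv]
      exact mul_inv_eq_iff_eq_mul.mp h4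
    have h5 : (a * b) ^ m * a * ((a * b) ^ m)⁻¹ = (a * b) ^ m * (a * b) ^ m * a := by
      rw [mul_assoc, h3, mul_assoc]
    have h6 : (a * b) ^ m * (a * b) ^ m = (a * b)⁻¹ := by
      rw [← pow_add, eq_inv_iff_mul_eq_one, ← pow_succ, ← two_mul, ← hm, pow_orderOf_eq_one]
    rw [h5, h6, mul_inv_rev, hai, hbi, mul_assoc, ha, mul_one]
  obtain ⟨m, hm⟩ := hev
  have hpos := orderOf_pos (a * b)
  refine ⟨(a * b) ^ m, ?_, ?_, ?_⟩
  · rw [← pow_add, ← hm, pow_orderOf_eq_one]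
  · exact pow_ne_one_of_lt_orderOf (by omega) (by omega)
  · have h1 : (a * b) ^ m * (a * b) ^ m = 1 := by rw [← pow_add, ← hm, pow_orderOf_eq_one]
    have h2 := comm_of_mem_zpowers ha hb h1 ⟨(m : ℤ), by simp⟩
    exact h2

end

variable {G : Type*} [Group G] [Finite G] {Q : Subgroup G} {z v : G} {x x0 : Fin 5 → G}

/-- A subgroup containing `C(z)`, `C(v)` and an element conjugating `z` to `x₄` is the whole group. -/
theorem eq_top_of_cent (S : J2Set Q z x0 v) (B : Base Q z x) {M : Subgroup G}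
    (h1 : centralizer ({z} : Set G) ≤ M) (h2 : centralizer ({v} : Set G) ≤ M) {d : G} (hd : d ∈ M)
    (hdz : d * z * d⁻¹ = x 4) : M = ⊤ := by
  have hQM : Q ≤ M := fun q hq => h1 (mem_cent.mpr (B.pl.central q hq))
  have conjM : ∀ {a m : G}, m ∈ M → centralizer ({a} : Set G) ≤ M →
      centralizer ({m * a * m⁻¹} : Set G) ≤ M := by
    intro a m hm ha c hc
    have h3 := conj_comm (g := m⁻¹) (mem_cent.mp hc)
    have e1 : m⁻¹ * (m * a * m⁻¹) * m⁻¹⁻¹ = a := by group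
    rw [e1] at h3
    have h4 := ha (mem_cent.mpr h3)
    have h5 := M.mul_mem (M.mul_mem hm h4) (M.inv_mem hm)
    have e2 : m * (m⁻¹ * c * m⁻¹⁻¹) * m⁻¹ = c := by group
    rwa [e2] at h5
  -- involutions of `C(z)`
  have inv_cases : ∀ a : G, a * z = z * a → a * a = 1 → a ≠ 1 →
      (∃ m ∈ M, m * z * m⁻¹ = a) ∨ ∃ m ∈ M, m * v * m⁻¹ = a := by
    intro a haz haa ha1
    by_cases haQ : a ∈ Q
    · left
      by_cases ha : a = z
      · exact ⟨1, M.one_mem, by rw [ha]; group⟩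
      · have hx41 : x 4 ≠ 1 := by
          have := B.pts.ne_zp B.pl 0 4
          rwa [zp_zero] at this
        have hx4z : x 4 ≠ z := by
          have := B.pts.ne_zp B.pl 1 4
          rwa [zp_one] at this
        obtain ⟨c, hcz, hc⟩ := B.conj_Q (B.pts.mem 4) hx41 hx4z (B.pts.sq 4) haQ ha1 ha haa
        refine ⟨c * d, M.mul_mem (h1 (mem_cent.mpr hcz)) hd, ?_⟩
        rw [← hc, ← hdz]; group
    · right
      obtain ⟨c, hcz, hc⟩ := S.conj_v haz haQ haa
      exact ⟨c, h1 (mem_cent.mpr hcz), hc⟩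
  have cent_le : ∀ a ∈ M, a * a = 1 → a ≠ 1 → centralizer ({a} : Set G) ≤ M := by
    intro a haM haa ha1
    obtain ⟨m, hm, hma⟩ := exists_conj_in B.pl hQM haM haa
    have e1 : a = m⁻¹ * (m * a * m⁻¹) * m⁻¹⁻¹ := by group
    have h3 : centralizer ({m * a * m⁻¹} : Set G) ≤ M := by
      rcases inv_cases _ hma (conj_sq haa) (conj_ne_one ha1) with ⟨n, hn, hn2⟩ | ⟨n, hn, hn2⟩
      · rw [← hn2]; exact conjM hn h1
      · rw [← hn2]; exact conjM hn h2
    rw [e1]
    exact conjM (M.inv_mem hm) h3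
  have vM : v ∈ M := h2 (mem_cent.mpr rfl)
  rw [eq_top_iff]
  intro g _
  -- `g z g⁻¹ ∈ M`
  have hgM : g * z * g⁻¹ ∈ M := by
    have hnc : ¬ IsConj v (g * z * g⁻¹) := fun h => S.nc (h.trans (isConj_iff.mpr ⟨g⁻¹, by group⟩))
    obtain ⟨i, hii, hi1, hvi, hgi⟩ := exists_common S.vv (conj_sq B.pl.sq) hnc
    have hiM : i ∈ M := h2 (mem_cent.mpr hvi.symm)
    exact cent_le i hiM hii hi1 (mem_cent.mpr hgi)
  obtain ⟨m, hm, hma⟩ := exists_conj_in B.pl hQM hgM (conj_sq B.pl.sq)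
  rcases inv_cases _ hma (conj_sq (conj_sq B.pl.sq)) (conj_ne_one (conj_ne_one B.pl.ne_one)) with
    ⟨n, hn, hn2⟩ | ⟨n, hn, hn2⟩
  · have h3 : n⁻¹ * m * g ∈ centralizer ({z} : Set G) := by
      rw [mem_cent, ← mul_inv_eq_iff_eq_mul]
      have e1 : n⁻¹ * m * g * z * (n⁻¹ * m * g)⁻¹ = n⁻¹ * (m * (g * z * g⁻¹) * m⁻¹) * n := by group
      rw [e1, ← hn2]; group
    have h4 := M.mul_mem (M.mul_mem (M.inv_mem hm) hn) (h1 h3)
    have e2 : m⁻¹ * n * (n⁻¹ * m * g) = g := by group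
    rwa [e2] at h4
  · exfalso
    apply S.nc
    rw [isConj_iff]
    exact ⟨g⁻¹ * m⁻¹ * n, by
      have e1 : g⁻¹ * m⁻¹ * n * v * (g⁻¹ * m⁻¹ * n)⁻¹ = g⁻¹ * m⁻¹ * (n * v * n⁻¹) * m * g := by group
      rw [e1, hn2]; group⟩

theorem J2Rel.top {E L K : Subgroup G} {p q r f : G} (S : J2Set Q z x0 v) (h : J2Loc z v E L K)
    (R : J2Rel Q z x E L K p q r f) {M : Subgroup G} (hz : z ∈ M) (hx : ∀ i, x i ∈ M) (hp : p ∈ M)
    (hq : q ∈ M) (hr : r ∈ M) (hf : f ∈ M) : M = ⊤ := by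
  have P := R.P
  have B := P.B
  have C := P.clif
  have pz : p * z = z * p := h.comm p P.pK z h.hzL
  have qz : q * z = z * q := h.comm q P.qK z h.hzL
  have hzp : ∀ a, zp z a ∈ M := fun a => M.pow_mem hz _
  have hQM : Q ≤ M := by
    intro w hw
    obtain ⟨a, h1 | ⟨i, h1⟩ | ⟨i, j, _, h1⟩⟩ := mem_form B.pl B.pts B.cardQ hw
    · rw [h1]; exact hzp a
    · rw [h1]; exact M.mul_mem (hzp a) (hx i)
    · rw [h1]; exact M.mul_mem (hzp a) (M.mul_mem (hx i) (hx j))
  have purepow : ∀ {c : G} {σ : Equiv.Perm (Fin 5)}, c * z = z * c → Act z x c σ 0 → ∀ n : ℕ,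
      c ^ n * z = z * c ^ n ∧ Act z x (c ^ n) (σ ^ n) 0 := by
    intro c σ hc hact n
    induction n with
    | zero => exact ⟨by simp, by simpa using act_one B.pl⟩
    | succ n ih =>
      rw [pow_succ, pow_succ]
      exact ⟨Base.mul_comm_z B ih.1 hc, pure_mul B ih.1 ih.2 hact⟩
  have hCM : centralizer ({z} : Set G) ≤ M := by
    intro c hc
    have hcz := mem_cent.mp hc
    obtain ⟨σ, hσ, s, -, hs⟩ := B.act hcz
    obtain ⟨a, b, c', d, e, hσ2⟩ := a5_form σ (Equiv.Perm.mem_alternatingGroup.mp hσ)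
    obtain ⟨y1, y2⟩ := purepow pz P.ap a
    obtain ⟨y3, y4⟩ := purepow qz P.aq b
    obtain ⟨y5, y6⟩ := purepow R.rz R.ar c'
    obtain ⟨y7, y8⟩ := purepow pz P.ap d
    obtain ⟨y9, y10⟩ := purepow qz P.aq e
    have k1 := Base.mul_comm_z B y1 y3
    have k2 := Base.mul_comm_z B k1 y5
    have k3 := Base.mul_comm_z B k2 y7
    have k4 := Base.mul_comm_z B k3 y9
    have l1 := pure_mul B k3 (pure_mul B k2 (pure_mul B k1 (pure_mul B y1 y2 y4) y6) y8) y10
    rw [← hσ2] at l1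
    set w := p ^ (a : ℕ) * q ^ (b : ℕ) * r ^ (c' : ℕ) * p ^ (d : ℕ) * q ^ (e : ℕ) with hw
    have hwM : w ∈ M := M.mul_mem (M.mul_mem (M.mul_mem (M.mul_mem (M.pow_mem hp _) (M.pow_mem hq _))
      (M.pow_mem hr _)) (M.pow_mem hp _)) (M.pow_mem hq _)
    have hwi := act_inv B.pl k4 l1
    have h3 := act_mul B.pl (Base.inv_comm_z B k4) hwi hs
    rw [inv_mul_cancel] at h3
    have h4 := B.mem_of_act_one (Base.mul_comm_z B (Base.inv_comm_z B k4) hcz) h3
    have h5 := M.mul_mem hwM (hQM h4)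
    rwa [mul_inv_cancel_left] at h5
  have hEM : E ≤ M := by
    intro e he
    apply hCM
    rw [mem_cent]
    exact h.comm e (h.hEK he) z h.hzL
  obtain ⟨d1, d2, d3, d4, dL⟩ := R.d_rel h
  have hdM : f * f * x 4 * f⁻¹ ∈ M := M.mul_mem (M.mul_mem (M.mul_mem hf hf) (hx 4)) (M.inv_mem hf)
  have hLM : L ≤ M := by
    -- the intersection has order divisible by 60
    have hL60 : Nat.card L = 60 := A5.card h.eL
    have hle : L ⊓ M ≤ L := inf_le_left
    have h3 : 3 ∣ Nat.card ↥(L ⊓ M) := by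
      have : orderOf (f * f * x 4 * f⁻¹) = 3 := by
        have : Fact (Nat.Prime 3) := ⟨by norm_num⟩
        exact orderOf_eq_prime (by rw [pow_succ, pow_two, mul_assoc]; exact d3) d4
      rw [← this, ← Nat.card_zpowers]
      exact Subgroup.card_dvd_of_le (by rw [zpowers_le]; exact ⟨dL, hdM⟩)
    have h5 : 5 ∣ Nat.card ↥(L ⊓ M) := by
      have : orderOf f = 5 := by
        have : Fact (Nat.Prime 5) := ⟨by norm_num⟩
        exact orderOf_eq_prime (by simp only [pow_succ, pow_zero, one_mul, mul_assoc]; exact R.f5) R.f1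
      rw [← this, ← Nat.card_zpowers]
      exact Subgroup.card_dvd_of_le (by rw [zpowers_le]; exact ⟨R.fL, hf⟩)
    have h4 : 4 ∣ Nat.card ↥(L ⊓ M) := by
      have hx41 : x 4 ≠ 1 := by
        have := B.pts.ne_zp B.pl 0 4
        rwa [zp_zero] at this
      have hx4z : x 4 ≠ z := by
        have := B.pts.ne_zp B.pl 1 4
        rwa [zp_one] at this
      have k := card_four_group B.pl.sq (B.pts.sq 4) B.pl.ne_one hx41 hx4z (C.xz 4)
      rw [← k]
      exact Subgroup.card_dvd_of_le (sup_le (by rw [zpowers_le]; exact ⟨h.hzL, hz⟩)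
        (by rw [zpowers_le]; exact ⟨P.x4L, hx 4⟩))
    have h60 : 60 ∣ Nat.card ↥(L ⊓ M) := by omega
    have : L ⊓ M = L := Subgroup.eq_of_le_of_card_ge hle (by
      rw [hL60]; exact Nat.le_of_dvd Nat.card_pos h60)
    rw [← this]; exact inf_le_right
  have hvM : centralizer ({v} : Set G) ≤ M := by
    rw [h.hCE v h.htE S.v1]
    exact sup_le hEM hLM
  exact eq_top_of_cent S B hCM hvM hdM (by rw [mul_inv_eq_iff_eq_mul]; exact d1)

end Cfsg.Agent.LE
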